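import Cfsg.Agent.HeU.Ref

/-! A group of shape `2^{1+6}.L₃(2)` has a standard basis of one of two types (`exists_bas`). -/

set_option autoImplicit false
set_option maxRecDepth 100000
set_option linter.unusedSectionVars false

namespace Cfsg.Agent.HeU

open Cfsg.Agent.Comp Cfsg.Agent.Spor Cfsg.Agent.BG PGrp Module
open scoped commutatorElement

variable {H : Type*} [Group H] [Finite H] {Q : Subgroup H} [Q.Normal] {z : Q} (h : IsES 2 z) (tc : z.1 ∈ Subgroup.center H)

abbrev cn (c : H) : MulAut Q := MulAut.conjNormal c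

include tc in
theorem cn_z (c : H) {u : Q} (hu : u ∈ Subgroup.zpowers z) : cn c u = u := by
  obtain ⟨n, rfl⟩ := hu
  have : cn c z = z := Subtype.ext (by rw [MulAut.conjNormal_apply, Subgroup.mem_center_iff.1 tc, mul_inv_cancel_right])
  simp only [map_zpow, this]

include tc in
theorem π_cn (c : H) (x : Q) : h.π (cn c (h.out (h.π x))) = h.π (cn c x) := by
  obtain ⟨u, hu, e⟩ := h.exists_out x
  rw [e, map_mul, h.mk_mul, cn_z tc c hu, h.mk_eq_zero.2 hu, add_zero]

noncomputable def ac0 (c : H) : End (ZMod 2) h.V := AddMonoidHom.toZModLinearMap 2 (AddMonoidHom.mk'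
  (fun v => h.π (cn c (h.out v))) fun u v => by
    obtain ⟨x, rfl⟩ := h.mk_surjective u
    obtain ⟨y, rfl⟩ := h.mk_surjective v
    rw [← h.mk_mul, π_cn h tc, π_cn h tc, π_cn h tc, map_mul, h.mk_mul])

theorem ac0_π (c : H) (x : Q) : ac0 h tc c (h.π x) = h.π (cn c x) := π_cn h tc c x

noncomputable def ac : H →* End (ZMod 2) h.V where
  toFun := ac0 h tc
  map_one' := LinearMap.ext fun v => by
    obtain ⟨x, rfl⟩ := h.mk_surjective v
    rw [ac0_π, cn, map_one]; rfl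
  map_mul' a b := LinearMap.ext fun v => by
    obtain ⟨x, rfl⟩ := h.mk_surjective v
    rw [End.mul_apply, ac0_π, ac0_π, ac0_π, cn, map_mul]; rfl

theorem ac_π (c : H) (x : Q) : ac h tc c (h.π x) = h.π (cn c x) := π_cn h tc c x

theorem ac_Q {c : H} (hc : c ∈ Q) : ac h tc c = 1 := LinearMap.ext fun v => by
  obtain ⟨x, rfl⟩ := h.mk_surjective v
  rw [ac_π, show cn c x = ⟨c, hc⟩ * x * ⟨c, hc⟩⁻¹ from rfl, h.mk_mul, h.mk_mul, h.mk_inv, End.one_apply]; abel

theorem ac_eq {a b : H} (e : (a : H ⧸ Q) = b) : ac h tc a = ac h tc b := by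
  rw [← mul_inv_cancel_left a b, map_mul, ac_Q h tc (QuotientGroup.eq.1 e), mul_one]

theorem ac_B (c : H) (u v : h.V) : h.B (ac h tc c u) (ac h tc c v) = h.B u v := by
  obtain ⟨x, rfl⟩ := h.mk_surjective u
  obtain ⟨y, rfl⟩ := h.mk_surjective v
  exact h.ez_injective (by rw [ac_π, ac_π, h.ez_B, h.ez_B, ← map_commutatorElement, cn_z tc c (h.comm x y)])

theorem ac_pw (c : H) (u : h.V) : h.pw (ac h tc c u) = h.pw u := by
  obtain ⟨x, rfl⟩ := h.mk_surjective u
  exact h.ez_injective (by rw [ac_π, h.ez_pw, h.ez_pw, ← map_pow, cn_z tc c (h.pow x)])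

include h in
theorem zp {u : Q} (hu : u ∈ Subgroup.zpowers z) : u = 1 ∨ u = z := by
  obtain ⟨s, rfl⟩ := h.exists_ez hu
  rcases (by decide : ∀ s : ZMod 2, s = 0 ∨ s = 1) s with rfl | rfl
  exacts [.inl h.ez_zero, .inr h.ez_one]

theorem bas_of (hZ : Subgroup.center Q = Subgroup.zpowers z) (hcard : Nat.card Q = 128) (h2c : C[Q] ≤ Q) (hH : Nat.card H = 21504)
    {g : ℕ → H} (hg : Tri fun l => (g l : H ⧸ Q)) {x y : h.V} (hN : NF h.B (ac h tc (g 0)) (ac h tc (g 1)) x y) {W : List ℕ}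
    (hW : ∀ i < 6, lin W (2 ^ i) = nthL 0 W i) (hA : Act (bs (ac h tc (g 0)) x y) (ac h tc (g 2)) W) : ∃ X, Bas Q z.1 X g W := by
  have hM : Nat.card h.V = 64 := by have := h.card_eq_mul; omega
  have hb : ∀ i < 6, vl (bs (ac h tc (g 0)) x y) (2 ^ i) = (bs (ac h tc (g 0)) x y).getD i 0 := fun i hi => by
    rw [vl_bs]; interval_cases i <;> simp [bs, Nat.testBit]
  have hl : ∀ l, ∀ i < 6, ac h tc (g l) ((bs (ac h tc (g 0)) x y).getD i 0) = vl (bs (ac h tc (g 0)) x y) (cl W l i) := fun l i hi => by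
    rw [← hb i hi]
    rcases l with _ | _ | _ | l
    · rw [hN.act_s]; exact congrArg _ ((by decide : ∀ i < 6, lin S6 (2 ^ i) = nthL 0 S6 i) i hi)
    · rw [hN.act_r]; exact congrArg _ ((by decide : ∀ i < 6, lin R6 (2 ^ i) = nthL 0 R6 i) i hi)
    · rw [hA, hW i hi]; rfl
    · rw [ac_Q h tc ((QuotientGroup.eq_one_iff _).1 (hg.g3 _ (by omega))), End.one_apply, cl, nthL_eq _ _ (l + 3)]
      exact congrArg _ ((by decide : ∀ i < 6, 2 ^ i = nthL 0 [1, 2, 4, 8, 16, 32] i) i hi)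
  have hp : ∀ v, h.π (pr (fun i => h.out ((bs (ac h tc (g 0)) x y).getD i 0)) v 6) = vl (bs (ac h tc (g 0)) x y) v := fun v => by
    simp only [pr_succ, h.mk_mul, apply_ite h.π, h.mk_out, h.mk_one, vl_bs, show ∀ Y : ℕ → Q, pr Y v 0 = 1 from fun _ => rfl]
    simp [bs, add_assoc]
  have gram := hN.gram
  have sing := fun j hj => hN.sing (q := h.pw) (fun u v => by rw [h.pw_add, hN.symm]; simp) (ac_pw h tc _) (j := j) hj
  have inj := @hN.inj
  have surj := hN.surj hM
  have dual := hN.dual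
  generalize bs (ac h tc (g 0)) x y = b at *
  have co : ∀ v, pr (fun i => (h.out (b.getD i 0)).1) v 6 = (pr (fun i => h.out (b.getD i 0)) v 6).1 := fun v =>
    (map_pr Q.subtype v 6).symm
  refine ⟨fun i => h.out (b.getD i 0), ⟨tc, congrArg Subtype.val (by rw [← sq, ← h.ord, pow_orderOf_eq_one] : z * z = 1),
    fun i hi => congrArg Subtype.val ((sq _).symm.trans (h.pw_eq_zero.1 (by rw [h.mk_out, sing i hi]))), fun i hi j hj => ?_⟩,
    fun e => h.ne_one (Subtype.ext e), fun c hc => ?_, fun i => (h.out _).2, z.2, fun q hq => ?_, fun v hv e => ?_,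
    fun l η => ?_, hg, hH, hcard⟩
  · have := h.ez_B (h.out (b.getD i 0)) (h.out (b.getD j 0))
    rw [h.mk_out, h.mk_out, gram i hi j hj, commutatorElement_def, eq_comm, mul_inv_eq_iff_eq_mul, mul_inv_eq_iff_eq_mul,
      mul_assoc, (h.commute_of_mem (h.ez_mem _) _).eq, gr, ← tb_eq] at this
    rw [← Subgroup.coe_mul, this, gb]
    split_ifs <;> simp [h.ez_one, h.ez_zero]
  · have h1 : c ∈ Q := h2c fun q hq => (hc q hq).symm
    simpa [Subtype.ext_iff] using zp h (u := ⟨c, h1⟩) (hZ ▸ Subgroup.mem_center_iff.2 fun q => Subtype.ext (hc q q.2).symm)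
  · obtain ⟨v, hv, e⟩ := surj (h.π ⟨q, hq⟩)
    rw [← hp, eq_comm, h.mk_eq_mk] at e
    refine ⟨v, hv, ?_⟩
    simpa only [co, inv_mul_eq_one, inv_mul_eq_iff_eq_mul, Subtype.ext_iff, eq_comm (b := q), mul_one, Subgroup.coe_mul] using zp h e
  · refine inj hv (by decide) ?_
    rw [vl_zero, ← hp, h.mk_eq_zero]
    rw [co] at e
    rcases e with e | e
    · exact (Subtype.ext e : _ = (1 : Q)) ▸ one_mem _
    · exact (Subtype.ext e : _ = z).symm ▸ Subgroup.mem_zpowers _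
  · classical
    have k : ∀ i, ∃ δ, i < 6 → cn (g l) (h.out (b.getD i 0)) = pr (fun i => h.out (b.getD i 0)) (cl W l i) 6 * h.ez δ := fun i => by
      by_cases hi : i < 6
      · obtain ⟨δ, e⟩ := h.exists_ez (h.mk_eq_mk.1 ((hp _).trans ((hl l i hi).symm.trans rfl)))
        exact ⟨δ, fun _ => by rw [e, mul_inv_cancel_left]⟩
      · exact ⟨0, fun e => absurd e hi⟩
    choose δ hδ using k
    obtain ⟨u, hu⟩ := dual fun i => δ i + if η i then 1 else 0
    refine ⟨_, (h.out (vl b u)).2, fun i hi => ?_⟩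
    have e1 := h.ez_B (h.out (vl b u)) (h.out (b.getD i 0))
    rw [h.mk_out, h.mk_out, hu i hi, commutatorElement_def, eq_comm, mul_inv_eq_iff_eq_mul] at e1
    have e2 : g l * h.out (vl b u) * h.out (b.getD i 0) * (g l * h.out (vl b u))⁻¹ =
        (pr (fun i => h.out (b.getD i 0)) (cl W l i) 6 * h.ez (if η i then 1 else 0)).1 := by
      have : cn (g l) (h.out (vl b u) * h.out (b.getD i 0) * (h.out (vl b u))⁻¹) =
          pr (fun i => h.out (b.getD i 0)) (cl W l i) 6 * h.ez (if η i then 1 else 0) := by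
        rw [e1, map_mul, cn_z tc _ (h.ez_mem _), hδ i hi, (h.commute_of_mem (h.ez_mem _) _).eq, mul_assoc, ← h.ez_add,
          ← add_assoc, CharTwo.add_self_eq_zero, zero_add]
      rw [← this]; simp [mul_assoc]
    rw [e2, co]
    exact ⟨fun e => by rw [if_pos e, h.ez_one]; rfl, fun e => by rw [if_neg e, h.ez_zero, mul_one]⟩

theorem exists_bas (Q : Subgroup H) [Q.Normal] (hQ : IsExtraspecial 2 Q) (hcard : Nat.card Q = 128) (h2c : C[Q] ≤ Q)
    (e : H ⧸ Q ≃* SL3) {t : H} (tc : t ∈ Subgroup.center H) (t1 : t ≠ 1) : ∃ X g, Bas Q t X g Wb ∨ Bas Q t X g Wa := by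
  obtain ⟨z, h, hZ⟩ := exists_isES hQ
  have tq : t ∈ Q := h2c fun q _ => Subgroup.mem_center_iff.1 tc q
  obtain rfl : t = z := congrArg Subtype.val ((zp h (u := ⟨t, tq⟩) (hZ ▸ Subgroup.mem_center_iff.2 fun q =>
    Subtype.ext (Subgroup.mem_center_iff.1 tc _))).resolve_left fun e => t1 (congrArg Subtype.val e))
  have hH : Nat.card H = 21504 := by
    rw [Subgroup.card_eq_card_quotient_mul_card_subgroup Q, hcard, Nat.card_congr e.toEquiv, card_SL2F 3 (by decide)]; decide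
  have hM : Nat.card h.V = 64 := by have := h.card_eq_mul; omega
  obtain ⟨g0, h1, h2⟩ := exists_tri
  choose g hg using fun l => QuotientGroup.mk_surjective (e.symm (g0 l))
  have h3 : Tri fun l => (g l : H ⧸ Q) := by simpa only [hg] using h1.map e.symm
  have h4 : Tri fun l => ((sw g l : H) : H ⧸ Q) := by
    convert h2.map e.symm using 2 with l
    simp only [sw]; split_ifs <;> simp [hg]
  have k : ∀ {a b : H}, (a : H ⧸ Q) = b → ac h tc a = ac h tc b := ac_eq h tc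
  obtain ⟨x, y, hN⟩ := exists_NF (B := h.B) (s := ac h tc (g 0)) (r := ac h tc (g 1)) ⟨h.isAlt, by
      rw [← map_pow, k (b := 1) h3.s7, map_one], by rw [← map_pow, k (b := 1) h3.r3, map_one], by
      rw [← map_pow, ← map_mul, ← map_mul]; exact k h3.rs, ac_B h tc _, ac_B h tc _⟩ (fun e1 => h3.s1 (by
      have : g 0 ^ 2 ∈ Q := h2c fun q hq => by
        have e2 := ac_π h tc (g 0) ⟨q, hq⟩
        rw [e1, End.one_apply, h.mk_eq_mk] at e2
        have e3 : cn (g 0) (cn (g 0) ⟨q, hq⟩) = ⟨q, hq⟩ := by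
          rw [← mul_inv_cancel_left ⟨q, hq⟩ (cn (g 0) ⟨q, hq⟩), map_mul, cn_z tc _ e2, ← mul_inv_cancel_left ⟨q, hq⟩ (cn (g 0) ⟨q, hq⟩),
            inv_mul_cancel_left, mul_assoc, ← sq, h.pow_eq_one e2, mul_one]
        have e4 : g 0 * (g 0 * q * (g 0)⁻¹) * (g 0)⁻¹ = q := congrArg Subtype.val e3
        nth_rw 1 [← e4]; rw [sq]; group
      have e5 : (g 0 : H ⧸ Q) ^ 2 = 1 := (QuotientGroup.eq_one_iff _).2 this
      have := h3.s7
      rwa [show 7 = 2 * 3 + 1 from rfl, pow_succ, pow_mul, e5, one_pow, one_mul] at this)) fun u hu => by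
      obtain ⟨x, rfl⟩ := h.mk_surjective u
      exact h.mk_eq_zero.2 (hZ ▸ h.mem_center_iff.2 hu)
  rcases hN.tri (w := ac h tc (g 2)) hM (by rw [← map_mul, k (b := 1) h3.w2, map_one])
    (by rw [← map_mul, ← map_pow, k (b := 1) h3.wr, map_one]) (by rw [← map_mul, ← map_pow, k (b := 1) h3.ws, map_one]) with hA | hA | hA
  · exact (bas_of h tc hZ hcard h2c hH h3 hN (by decide) hA).imp fun X hX => ⟨g, .inl hX⟩
  · exact (bas_of h tc hZ hcard h2c hH h3 hN (by decide) hA).imp fun X hX => ⟨g, .inr hX⟩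
  · have e1 : ac h tc (sw g 0) = ac h tc (g 0) ^ 6 := map_pow _ _ 6
    exact (bas_of h tc hZ hcard h2c hH h4 (e1 ▸ hN.swap) (by decide) (e1 ▸ hN.act_swap hA)).imp fun X hX => ⟨_, .inr hX⟩

end Cfsg.Agent.HeU
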