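import Cfsg.Agent.Comp.Lin
import Cfsg.Agent.HeR.Scan
import Cfsg.Agent.Spor.J.HU7

/-! Standard generators of `L₃(2)` (`Tri`, `exists_tri`) and the splitting of central extensions (`split`). -/

set_option autoImplicit false
set_option maxRecDepth 100000

namespace Cfsg.Agent.HeU

open Cfsg.Agent.Comp Cfsg.Agent.Spor HeR

variable {L L' : Type*} [Group L] [Group L'] {g : ℕ → L}

def WL : List ℕ := [0, 1, 2, 3, 17, 18, 19, 33, 34, 35, 49, 50, 273, 275, 289, 290, 291, 305, 306, 529, 530, 531, 545, 561, 785, 786, 787, 801, 4369, 4371, 4401, 4402, 4625, 4626, 4627, 4641, 4657, 4881, 4882, 4883, 4897, 8465, 8467, 8481, 8497, 8723, 8977, 8978, 8979, 12561, 12563, 12577, 12579, 12593, 12594, 12817, 12818, 12819, 69905, 69907, 69937, 69938, 70417, 70418, 70419, 70433, 74003, 74033, 74259, 74513, 74514, 74515, 78097, 78099, 78113, 78115, 78130, 78353, 78354, 78355, 135443, 135473, 135698, 135699, 135953, 135954, 135955, 139569, 143633, 143649, 143651,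 143666, 200979, 201009, 201010, 201233, 201489, 201505, 1118483, 1118513, 1118993, 1118994, 1118995, 1119009, 1126673, 1126675, 1126689, 1126691, 1126706, 1126930, 1126931, 1184049, 1184529, 1184530, 1184531, 1188145, 1192209, 1192225, 1192227, 1192242, 1249555, 1249585, 1249586, 1249809, 2167089, 2167569, 2167570, 2167571, 2171185, 2175249, 2175265, 2233105, 2298131, 2298657, 3215665, 3216145, 3216147, 3216161, 3223825, 3223827, 3224082, 3224083, 17895729, 17896210, 17903889, 17903891, 17903905, 17903907, 17904147, 18026801, 18026802, 18027025, 18944785, 18944787, 19010321, 19075347, 19075873, 19992881, 19993361, 19993377, 34673427, 34738961, 34738962, 35729681, 36770097, 51581234, 286331666, 286339361]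
def wd (j : ℕ) : List ℕ := dw (nthL 0 WL j)
def evm (mul : ℕ → ℕ → ℕ) (one : ℕ) (L w : List ℕ) : ℕ := List.rec one (fun l _ ih => mul ih (nthL one L l)) w

structure Tri (g : ℕ → L) : Prop where
  g3 : ∀ l, 3 ≤ l → g l = 1
  s7 : g 0 ^ 7 = 1
  s1 : g 0 ≠ 1
  r3 : g 1 ^ 3 = 1
  rs : g 1 * g 0 = g 0 ^ 2 * g 1
  w2 : g 2 * g 2 = 1
  wr : (g 2 * g 1) ^ 2 = 1
  ws : (g 2 * g 0) ^ 3 = 1
  w1 : g 2 * g 1 ≠ 1
  cov : ∀ x, ∃ j < 168, x = ev g (wd j)
  cj : ∀ x, x * x = 1 → x ≠ 1 → IsConj (g 2) x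

theorem Tri.map (h : Tri g) (e : L ≃* L') : Tri fun l => e (g l) :=
  ⟨fun l hl => by rw [h.g3 l hl, map_one], by rw [← map_pow, h.s7, map_one], by simpa using h.s1, by rw [← map_pow, h.r3, map_one],
    by rw [← map_mul, h.rs, map_mul, map_pow], by rw [← map_mul, h.w2, map_one], by rw [← map_mul, ← map_pow, h.wr, map_one],
    by rw [← map_mul, ← map_pow, h.ws, map_one], by rw [← map_mul]; exact fun e1 => h.w1 (e.map_eq_one_iff.1 e1), fun x => by
      obtain ⟨j, hj, e1⟩ := h.cov (e.symm x)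
      exact ⟨j, hj, by rw [← map_ev, ← e1, MulEquiv.apply_symm_apply]⟩, fun x h1 h2 => by
      simpa using e.toMonoidHom.map_isConj (h.cj (e.symm x) (by rw [← map_mul, h1, map_one]) (by simpa using h2))⟩

abbrev SL3 := Matrix.SpecialLinearGroup (Fin 3) (ZMod 2)

def triOK (mul : ℕ → ℕ → ℕ) (one : ℕ) (C : List ℕ) : Bool :=
  band (Nat.beq (lenL C) 3) (band (Comp.allL [[0, 0, 0, 0, 0, 0, 0], [1, 1, 1], [2, 2], [1, 2, 1, 2], [0, 2, 0, 2, 0, 2]] fun w =>
    Nat.beq (evm mul one C w) one) (band (Nat.beq (evm mul one C [0, 1]) (evm mul one C [1, 0, 0]))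
    (band (!Nat.beq (evm mul one C [0]) one) (band (!Nat.beq (evm mul one C [1, 2]) one)
    (forceL (mapL (fun j => evm mul one C (wd j)) (List.range 168)) fun A => band (decide A.Nodup) (Comp.allL A fun a =>
      imp (Nat.beq (mul a a) one) (bor (Nat.beq a one) (anyL A fun k => Nat.beq (mul k (nthL one C 2)) (mul a k)))))))))

theorem tri_of {R : ℕ → L → Prop} {mul : ℕ → ℕ → ℕ} {inv : ℕ → ℕ} {one : ℕ} (hG : IsGrp R mul inv one) (hC : IsCanon R)
    (hc : Nat.card L = 168) {C : List ℕ} (hg : ∀ l, R (nthL one C l) (g l)) (h : triOK mul one C = true) : Tri g := by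
  have : Finite L := Nat.finite_of_card_ne_zero (by omega)
  have k : ∀ w, R (evm mul one C w) (ev g w) := fun w => by
    induction w with
    | nil => exact hG.one
    | cons l w ih => exact hG.mul ih (hg l)
  simp only [triOK, band_eq, Bool.and_eq_true, nbeq, Comp.allL_iff, Bool.not_eq_true', nbeq_false, forceL_eq, mapL_eq,
    decide_eq_true_eq, imp_iff, bor_eq, Bool.or_eq_true, anyL_iff, lenL_eq, List.forall_mem_map, List.mem_range,
    List.forall_mem_cons, ← hC.eq_iff (k _) hG.one, ← hC.eq_iff (k _) (k _), ne_eq, List.mem_map] at h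
  obtain ⟨h0, ⟨h1, h2, h3, h4, h5, -⟩, h6, h7, h8, h9, h10⟩ := h
  have cov : ∀ x, ∃ j < 168, x = ev g (wd j) := fun x => by
    obtain ⟨j, e⟩ := ((Nat.bijective_iff_injective_and_card fun j : Fin 168 => ev g (wd j)).2 ⟨fun i j e => Fin.ext
      (List.inj_on_of_nodup_map h9 (List.mem_range.2 i.2) (List.mem_range.2 j.2) ((hC.eq_iff (k _) (k _)).1 e)), by simp [hc]⟩).2 x
    exact ⟨j, j.2, e.symm⟩
  refine ⟨fun l hl => hC.func (hg l) (by rw [nthL_eq, List.getD_eq_default _ _ (h0 ▸ hl)]; exact hG.one), by simpa [ev, pow_succ] using h1,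
    by simpa [ev] using h7, by simpa [ev, pow_succ] using h2, by simpa [ev, sq] using h6, by simpa [ev] using h3,
    by simpa [ev, sq, mul_assoc] using h4, by simpa [ev, pow_succ, mul_assoc] using h5, by simpa [ev] using h8, cov, fun x x2 x1 => ?_⟩
  obtain ⟨j, hj, rfl⟩ := cov x
  obtain ⟨_, ⟨i, -, rfl⟩, e⟩ := (h10 _ ⟨j, hj, rfl⟩ ((hC.eq_iff (hG.mul (k _) (k _)) hG.one).1 x2)).resolve_left
    (mt (hC.eq_iff (k _) hG.one).2 x1)
  exact isConj_iff.2 ⟨_, mul_inv_eq_iff_eq_mul.2 ((hC.eq_iff (hG.mul (k _) (hg 2)) (hG.mul (k _) (k _))).2 e)⟩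

def sw (g : ℕ → L) (l : ℕ) : L := if l = 0 then g 0 ^ 6 else g l

theorem exists_tri : ∃ g : ℕ → SL3, Tri g ∧ Tri (sw g) := by
  have := faithful_SL (Fin 3) (ZMod 2)
  have hp : Par (2 ^ 3) 3 7 := ⟨le_rfl, rfl⟩
  have hG := isGrp_CRep (G := SL3) (encFin 2).vec hp
  have hc : Nat.card SL3 = 168 := (card_SL2F 3 (by decide)).trans (by decide)
  obtain ⟨g, -, hg⟩ := hG.exists_elts ((codes_SL (encFin 2) (L := [12369168, 7072520, 16362248]) (by decide +kernel)).toCRep (by decide +kernel))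
  refine ⟨g, tri_of hG (isCanon_CRep _ hp) hc hg (by decide +kernel), tri_of hG (isCanon_CRep _ hp) hc (C := [13609064, 7072520, 16362248])
    (fun l => ?_) (by decide +kernel)⟩
  rcases l with _ | l
  · convert hG.pow (hg 0) 6 using 1
    exacts [by decide +kernel, rfl]
  · exact hg (l + 1)

theorem split {τ x y w : L} (hc : τ ∈ Subgroup.center L) (h2 : τ * τ = 1) (hx : x ^ 7 = 1 ∨ x ^ 7 = τ) (hy : y ^ 3 = 1 ∨ y ^ 3 = τ)
    (hs : (w * x) ^ 3 = 1 ∨ (w * x) ^ 3 = τ) (hr : y * x * y⁻¹ = x ^ 2 ∨ y * x * y⁻¹ = x ^ 2 * τ) (w2 : w * w = 1)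
    (wy : (w * y) ^ 2 = 1) : ∃ K : Subgroup L, CardLe K 168 ∧ ∀ u ∈ [x, y, w], u ∈ K ∨ u * τ ∈ K := by
  have c : ∀ u, Commute u τ := Subgroup.mem_center_iff.1 hc
  have p2 : ∀ n, τ ^ (2 * n) = 1 := fun n => by rw [pow_mul, sq, h2, one_pow]
  have p1 : ∀ n, τ ^ (2 * n + 1) = τ := fun n => by rw [pow_succ, p2, one_mul]
  wlog h1 : x ^ 7 = 1 generalizing x
  · obtain ⟨K, k1, k2⟩ := this (x := x * τ) (.inl (by rw [(c x).mul_pow, hx.resolve_left h1, p1 3, h2]))
      (by rw [← mul_assoc, (c _).mul_pow, p1 1]; exact hs.symm.imp (fun e => by rw [e, h2]) fun e => by rw [e, one_mul])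
      (by rw [(c x).mul_pow, p2 1, mul_one, ← mul_assoc, mul_assoc _ τ, ← (c y⁻¹).eq, ← mul_assoc]
          exact hr.symm.imp (fun e => by rw [e, mul_assoc, h2, mul_one]) fun e => by rw [e])
      (by rw [(c x).mul_pow, hx.resolve_left h1, p1 3, h2])
    simp only [List.forall_mem_cons, mul_assoc, h2, mul_one] at k2 ⊢
    exact ⟨K, k1, k2.1.symm, k2.2⟩
  wlog h3 : y ^ 3 = 1 generalizing y
  · obtain ⟨K, k1, k2⟩ := this (y := y * τ) (.inl (by rw [(c y).mul_pow, hy.resolve_left h3, p1 1, h2]))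
      (by rwa [← mul_assoc, (c _).mul_pow, p2 1, mul_one])
      (by rwa [mul_assoc y, ← (c x).eq, mul_inv_rev, ← mul_assoc, ← mul_assoc, mul_inv_cancel_right]) (by rw [(c y).mul_pow, hy.resolve_left h3, p1 1, h2])
    simp only [List.forall_mem_cons, mul_assoc, h2, mul_one] at k2 ⊢
    exact ⟨K, k1, k2.1, k2.2.1.symm, k2.2.2⟩
  wlog h4 : (w * x) ^ 3 = 1 generalizing w
  · have e : ∀ u, w * τ * u = w * u * τ := fun u => by rw [mul_assoc, ← (c u).eq, mul_assoc]
    obtain ⟨K, k1, k2⟩ := this (w := w * τ) (by rw [← sq, (c _).mul_pow, p2 1, sq, w2, mul_one])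
      (.inl (by rw [e, (c _).mul_pow, hs.resolve_left h4, p1 1, h2])) (by rwa [e, (c _).mul_pow, p2 1, mul_one])
      (by rw [e, (c _).mul_pow, hs.resolve_left h4, p1 1, h2])
    simp only [List.forall_mem_cons, mul_assoc, h2, mul_one] at k2 ⊢
    exact ⟨K, k1, k2.1, k2.2.1, k2.2.2.1.symm, k2.2.2.2⟩
  have h5 : y * x * y⁻¹ = x ^ 2 := hr.elim id fun e => by
    have := congrArg (· ^ 7) e
    simp only [conj_pow, h1, (c _).mul_pow, p1 3, ← pow_mul, mul_comm 2, pow_mul x 7, one_pow, mul_one, mul_inv_cancel, one_mul] at this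
    rwa [← this, mul_one] at e
  let G : ℕ → L := fun l => [x, x⁻¹, y, y⁻¹, w].getD l 1
  have hR : ∀ r ∈ JHU7.rels, ev G r = 1 := by
    simp only [JHU7.rels, List.forall_mem_cons, ev, G, List.getD_cons_succ, List.getD_cons_zero, one_mul, mul_inv_cancel,
      inv_mul_cancel, w2, h5, true_and, List.not_mem_nil, false_imp_iff, implies_true, and_true]
    exact ⟨by simpa [pow_succ] using h1, by simpa [pow_succ] using h3, by simpa [sq, mul_assoc] using wy,
      by simpa [pow_succ, mul_assoc] using h4, by group⟩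
  refine ⟨_, by simpa using cardLe_bot.of_relIndex (JHU7.relIndex_le (g := G) rfl hR (by simp [JHU7.subs])), ?_⟩
  simp only [List.forall_mem_cons, List.not_mem_nil, false_imp_iff, implies_true, and_true]
  exact ⟨.inl (mem_genL G (x := 0) (by decide)), .inl (mem_genL G (x := 2) (by decide)), .inl (mem_genL G (x := 4) (by decide))⟩

end Cfsg.Agent.HeU
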