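import Cfsg.Agent.Comp.F2
import Cfsg.Agent.HeR.Scan

/-! The three six-dimensional orthogonal `F₂ L₃(2)`-modules: normal form `NF` for the action of `7:3` (`exists_NF`),
coded actions `Act`, the trichotomy `NF.tri` and `NF.swap`. -/

set_option autoImplicit false
set_option maxRecDepth 100000
set_option linter.unusedSectionVars false

namespace Cfsg.Agent.HeU

open Cfsg.Agent.Comp Module

variable {M M' : Type*} [AddCommGroup M] [Module (ZMod 2) M] [AddCommGroup M'] [Module (ZMod 2) M']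
  {B : LinearMap.BilinForm (ZMod 2) M} {s r w g g' : End (ZMod 2) M} {x y : M} {b b' : List M} {c c' : List ℕ}

theorem two (m : M) : m + m = 0 := by rw [← two_smul (ZMod 2), show (2 : ZMod 2) = 0 from rfl, zero_smul]

theorem of_one {u v : M} (h : (1 : ZMod 2) • u = (1 : ZMod 2) • v) : u = v := by simpa using h

def vl (b : List M) : ℕ → M := List.rec (fun _ => 0) (fun x _ ih v => (if v.testBit 0 then x else 0) + ih (v >>> 1)) b

theorem vl_cons (v : ℕ) : vl (x :: b) v = (if v.testBit 0 then x else 0) + vl b (v >>> 1) := rfl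

theorem vl_zero : vl b 0 = 0 := by
  induction b with
  | nil => rfl
  | cons x b ih => simp [vl_cons, ih]

theorem vl_xor : ∀ u v, vl b (u ^^^ v) = vl b u + vl b v := by
  induction b with
  | nil => exact fun _ _ => (add_zero _).symm
  | cons x b ih =>
    intro u v
    rw [vl_cons, vl_cons, vl_cons, Nat.shiftRight_xor_distrib, ih, Nat.testBit_xor]
    cases u.testBit 0 <;> cases v.testBit 0 <;> simp only [Bool.xor_false, Bool.xor_true, Bool.not_false, Bool.not_true,
      if_true, Bool.false_eq_true, if_false] <;> (refine of_one ?_; match_scalars <;> decide)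

theorem map_vl (φ : M →ₗ[ZMod 2] M') : ∀ v, φ (vl b v) = vl (b.map φ) v := by
  induction b with
  | nil => exact fun _ => map_zero _
  | cons x b ih => intro v; rw [List.map_cons, vl_cons, vl_cons, map_add, ih, apply_ite φ, map_zero]

theorem vl_vl : ∀ v, vl (c.map (vl b)) v = vl b (lin c v) := by
  induction c with
  | nil => exact fun _ => vl_zero.symm
  | cons x c ih => intro v; rw [List.map_cons, vl_cons, lin_cons, vl_xor, ih, apply_ite (vl b), vl_zero]

theorem vl_bit (j : ℕ) : ∀ v, vl (c.map fun n => if n.testBit j then (1 : ZMod 2) else 0) v = if (lin c v).testBit j then 1 else 0 := by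
  induction c with
  | nil => exact fun v => by simp [vl, lin]
  | cons n c ih =>
    intro v
    rw [List.map_cons, vl_cons, ih, lin_cons, Nat.testBit_xor, apply_ite (Nat.testBit · j), Nat.zero_testBit]
    cases v.testBit 0 <;> cases (lin c (v >>> 1)).testBit j <;> cases n.testBit j <;> decide

theorem lin_lt (h : ∀ n ∈ c, n < 64) (v : ℕ) : lin c v < 64 :=
  lin_induction (p := (· < 2 ^ 6)) (by decide) (fun _ _ => Nat.xor_lt_two_pow) c h v

def Act (b : List M) (g : End (ZMod 2) M) (c : List ℕ) : Prop := ∀ v, g (vl b v) = vl b (lin c v)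

theorem Act.of (h : b.map g = c.map (vl b)) : Act b g c := fun v => by rw [map_vl, h, vl_vl]

def E1 (s : End (ZMod 2) M) : End (ZMod 2) M := 1 + s + s ^ 2 + s ^ 4
def E2 (s : End (ZMod 2) M) : End (ZMod 2) M := 1 + s ^ 3 + s ^ 5 + s ^ 6

structure Hyp (B : LinearMap.BilinForm (ZMod 2) M) (s r : End (ZMod 2) M) : Prop where
  alt : B.IsAlt
  s7 : s ^ 7 = 1
  r3 : r ^ 3 = 1
  rs : r * s = s ^ 2 * r
  Bs : ∀ u v, B (s u) (s v) = B u v
  Br : ∀ u v, B (r u) (r v) = B u v

namespace Hyp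
variable (h : Hyp B s r)
include h

theorem symm (u v : M) : B u v = B v u := by rw [← h.alt.neg_eq, ZMod.neg_eq_self_mod_two]

theorem pp (i j : ℕ) (u : M) : (s ^ i) ((s ^ j) u) = (s ^ ((i + j) % 7)) u := by
  rw [← End.mul_apply, ← pow_add, ← pow_eq_pow_mod _ h.s7]

theorem p1 (j : ℕ) (u : M) : s ((s ^ j) u) = (s ^ ((1 + j) % 7)) u := by rw [← h.pp, pow_one]

theorem p2 (j : ℕ) (u : M) : (s ^ j) (s u) = (s ^ ((j + 1) % 7)) u := by rw [← h.pp, pow_one]

theorem rp (i : ℕ) (u : M) : r ((s ^ i) u) = (s ^ (2 * i % 7)) (r u) := by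
  rw [← pow_eq_pow_mod _ h.s7]
  induction i with
  | zero => rfl
  | succ i ih => rw [pow_succ', End.mul_apply, ← End.mul_apply r, h.rs, End.mul_apply, ih, mul_add, add_comm, pow_add]; rfl

theorem r1 (u : M) : r (s u) = (s ^ 2) (r u) := by simpa using h.rp 1 u

theorem rr (u : M) : r (r (r u)) = u := congrArg (· u) h.r3

theorem Bp (i : ℕ) (u v : M) : B ((s ^ i) u) ((s ^ i) v) = B u v := by
  induction i with
  | zero => rfl
  | succ i ih => rw [pow_succ', End.mul_apply, End.mul_apply, h.Bs, ih]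

theorem adj {i : ℕ} (hi : i ≤ 7) (u v : M) : B ((s ^ i) u) v = B u ((s ^ (7 - i)) v) := by
  rw [← h.Bp i u, ← End.mul_apply (s ^ i), ← pow_add, Nat.add_sub_cancel' hi, h.s7]; rfl

theorem adjE (u v : M) : B (E1 s u) v = B u (E2 s v) := by
  have := h.adj (i := 1) (by decide) u v
  rw [pow_one] at this
  simp only [E1, E2, LinearMap.add_apply, map_add, End.one_apply, this, h.adj (i := 2) (by decide), h.adj (i := 4) (by decide)]
  ring

theorem inv : Hyp B (s ^ 6) r :=
  ⟨h.alt, by rw [← pow_mul, mul_comm, pow_mul, h.s7, one_pow], h.r3, LinearMap.ext fun u => by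
    simp [h.rp, ← pow_mul, pow_eq_pow_mod 12 h.s7], h.Bp 6, h.Br⟩

end Hyp

structure NF (B : LinearMap.BilinForm (ZMod 2) M) (s r : End (ZMod 2) M) (x y : M) : Prop extends Hyp B s r where
  x3 : (s ^ 3) x = s x + x
  y3 : (s ^ 3) y = (s ^ 2) y + y
  rx : r x = x
  ry : r y = y
  xy : B x y = 1

theorem exists_NF (h : Hyp B s r) (h1 : s ≠ 1) (nd : ∀ u, (∀ v, B u v = 0) → u = 0) : ∃ x y, NF B s r x y := by
  have e1 : ∀ u, (s ^ 3) (E1 s u) = s (E1 s u) + E1 s u := fun u => by
    simp only [E1, LinearMap.add_apply, map_add, End.one_apply, h.pp, h.p1, h.p2, Nat.reduceAdd, Nat.reduceMod, pow_zero,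
      ← End.mul_apply s s, ← sq]
    (refine of_one ?_; match_scalars <;> decide)
  have e2 : ∀ u, (s ^ 3) (E2 s u) = (s ^ 2) (E2 s u) + E2 s u := fun u => by
    simp only [E2, LinearMap.add_apply, map_add, End.one_apply, h.pp, Nat.reduceAdd, Nat.reduceMod, pow_zero, pow_one]
    (refine of_one ?_; match_scalars <;> decide)
  have e3 : ∀ u, E1 s (E1 s u) = E1 s u := fun u => by
    simp only [E1, LinearMap.add_apply, map_add, End.one_apply, h.pp, h.p1, h.p2, Nat.reduceAdd, Nat.reduceMod, pow_one,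
      ← End.mul_apply s s, ← sq]
    (refine of_one ?_; match_scalars <;> decide)
  have r1 : ∀ u, r (E1 s u) = E1 s (r u) := fun u => by
    simp only [E1, LinearMap.add_apply, map_add, End.one_apply, h.rp, h.r1, Nat.reduceMul, Nat.reduceMod, pow_one]
    (refine of_one ?_; match_scalars <;> decide)
  have r2 : ∀ u, r (E2 s u) = E2 s (r u) := fun u => by
    simp only [E2, LinearMap.add_apply, map_add, End.one_apply, h.rp, Nat.reduceMul, Nat.reduceMod]
    (refine of_one ?_; match_scalars <;> decide)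
  obtain ⟨u, hu⟩ : ∃ u, E1 s u ≠ 0 := by
    by_contra! H
    refine h1 (LinearMap.ext fun u => ?_)
    have k : ∀ v, E2 s v = 0 := fun v => nd _ fun u => by rw [h.symm, ← h.adjE, H, map_zero, LinearMap.zero_apply]
    have k1 := H u
    have k2 := k u
    have k3 := H (s u)
    have k4 := k (s u)
    simp only [E1, E2, LinearMap.add_apply, End.one_apply, h.p2, Nat.reduceAdd, Nat.reduceMod, pow_zero,
      ← End.mul_apply s s, ← sq] at k1 k2 k3 k4 ⊢
    linear_combination (norm := (refine of_one ?_; match_scalars <;> decide)) k1 + k2 + k3 + k4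
  obtain ⟨m, hm⟩ : ∃ m, E1 s (m + r m + r (r m)) ≠ 0 := by
    by_contra! H
    have k0 := H u
    have k1 := congrArg (⇑(s ^ 6)) (H (s u))
    have k2 := congrArg (⇑(s ^ 5)) (H ((s ^ 2) u))
    have k3 := congrArg (⇑(s ^ 4)) (H ((s ^ 3) u))
    have k4 := congrArg (⇑(s ^ 3)) (H ((s ^ 4) u))
    have k5 := congrArg (⇑(s ^ 2)) (H ((s ^ 5) u))
    have k6 := congrArg s (H ((s ^ 6) u))
    refine hu ?_
    simp only [E1, LinearMap.add_apply, map_add, map_zero, End.one_apply, h.pp, h.p1, h.p2, h.rp, h.r1, Nat.reduceAdd,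
      Nat.reduceMul, Nat.reduceMod, Nat.reducePow, pow_zero, pow_one, ← End.mul_apply s s, ← sq] at k0 k1 k2 k3 k4 k5 k6 ⊢
    linear_combination (norm := (refine of_one ?_; match_scalars <;> decide)) k0 + k1 + k2 + k3 + k4 + k5 + k6
  obtain ⟨v, hv⟩ : ∃ v, B (E1 s (m + r m + r (r m))) v = 1 := by
    by_contra! H
    exact hm (nd _ fun v => by have := H v; revert this; generalize B _ v = a; revert a; decide)
  have rx : r (E1 s (m + r m + r (r m))) = E1 s (m + r m + r (r m)) := by
    rw [r1, map_add r, map_add r, h.rr]; congr 1; (refine of_one ?_; match_scalars <;> decide)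
  refine ⟨_, E2 s (v + r v + r (r v)), h, e1 _, e2 _, rx, by rw [r2, map_add r, map_add r, h.rr]; congr 1; (refine of_one ?_; match_scalars <;> decide), ?_⟩
  rw [← h.adjE, e3]
  generalize E1 s (m + r m + r (r m)) = x at *
  have k : ∀ v, B x (r v) = B x v := fun v => by rw [← h.Br x v, rx]
  rw [map_add, map_add, k, k, k, hv]; rfl

def S6 : List ℕ := [2, 4, 3, 16, 32, 40]
def R6 : List ℕ := [1, 4, 6, 8, 32, 56]
def GR : List ℕ := [56, 48, 32, 1, 3, 7]
def Wb : List ℕ := [1, 4, 2, 8, 56, 32]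
def Wa : List ℕ := [1, 4, 2, 8, 58, 38]
def Wc : List ℕ := [1, 28, 50, 8, 56, 32]
def bs (s : End (ZMod 2) M) (x y : M) : List M := [x, s x, (s ^ 2) x, y, s y, (s ^ 2) y]
def gr (i j : ℕ) : ZMod 2 := if (nthL 0 GR i).testBit j then 1 else 0

theorem vl_bs (v : ℕ) : vl (bs s x y) v = (if v.testBit 0 then x else 0) + ((if v.testBit 1 then s x else 0) +
    ((if v.testBit 2 then (s ^ 2) x else 0) + ((if v.testBit 3 then y else 0) + ((if v.testBit 4 then s y else 0) +
    ((if v.testBit 5 then (s ^ 2) y else 0) + 0))))) := by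
  simp only [bs, vl_cons, Nat.testBit_shiftRight]; rfl

namespace NF
variable (h : NF B s r x y)
include h

theorem xp : (s ^ 4) x = (s ^ 2) x + s x ∧ (s ^ 5) x = (s ^ 2) x + s x + x ∧ (s ^ 6) x = (s ^ 2) x + x := by
  have k1 := congrArg s h.x3
  have k2 := congrArg (⇑(s ^ 2)) h.x3
  have k3 := congrArg (⇑(s ^ 3)) h.x3
  simp only [map_add, h.pp, h.p1, h.p2, Nat.reduceAdd, Nat.reduceMod, ← End.mul_apply s s, ← sq] at k1 k2 k3
  exact ⟨k1, by linear_combination (norm := (refine of_one ?_; match_scalars <;> decide)) k2 + h.x3, by linear_combination (norm := (refine of_one ?_; match_scalars <;> decide)) k3 + k1 + h.x3⟩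

theorem yp : (s ^ 4) y = (s ^ 2) y + s y + y ∧ (s ^ 5) y = s y + y ∧ (s ^ 6) y = (s ^ 2) y + s y := by
  have k1 := congrArg s h.y3
  have k2 := congrArg (⇑(s ^ 2)) h.y3
  have k3 := congrArg (⇑(s ^ 3)) h.y3
  simp only [map_add, h.pp, h.p1, h.p2, Nat.reduceAdd, Nat.reduceMod] at k1 k2 k3
  exact ⟨by linear_combination (norm := (refine of_one ?_; match_scalars <;> decide)) k1 + h.y3, by linear_combination (norm := (refine of_one ?_; match_scalars <;> decide)) k2 + k1 + h.y3,
    by linear_combination (norm := (refine of_one ?_; match_scalars <;> decide)) k3 + k2 + k1⟩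

theorem swap : NF B (s ^ 6) r y x := by
  refine ⟨h.inv, ?_, ?_, h.ry, h.rx, h.symm .. ▸ h.xy⟩ <;>
    simp only [← pow_mul, Nat.reduceMul, pow_eq_pow_mod 18 h.s7, pow_eq_pow_mod 12 h.s7, Nat.reduceMod, h.xp, h.yp]
  (refine of_one ?_; match_scalars <;> decide)

theorem act_s : Act (bs s x y) s S6 := Act.of (by
  simp only [S6, List.map_cons, List.map_nil, vl_bs]
  simp [bs, h.p1, h.x3, h.y3, Nat.testBit, ← End.mul_apply s s, ← sq, add_comm])

theorem act_r : Act (bs s x y) r R6 := Act.of (by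
  simp only [R6, List.map_cons, List.map_nil, vl_bs]
  simp [bs, h.rp, h.r1, h.rx, h.ry, h.xp, h.yp, Nat.testBit, add_comm, add_left_comm])

theorem gram : ∀ i < 6, ∀ j < 6, B ((bs s x y).getD i 0) ((bs s x y).getD j 0) = gr i j := by
  have a1 : ∀ u v, B (s u) v = B u ((s ^ 6) v) := fun u v => by simpa using h.adj (i := 1) (by decide) u v
  have a2 : ∀ u v, B ((s ^ 2) u) v = B u ((s ^ 5) v) := h.adj (i := 2) (by decide)
  have x1 := a1 x x
  have x2 := a2 x x
  have y1 := a1 y y
  have y2 := a2 y y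
  have z1 := h.Br x (s y)
  have z2 := h.Br x ((s ^ 2) y)
  have s1 := h.symm (s x) x
  have s2 := h.symm ((s ^ 2) x) x
  have s3 := h.symm (s y) y
  have s4 := h.symm ((s ^ 2) y) y
  simp only [h.xp, h.yp, map_add, h.alt _, h.rx, h.ry, h.r1, h.rp, h.xy, Nat.reduceMul, Nat.reduceMod] at x1 x2 y1 y2 z1 z2
  have k : B x (s x) = 0 ∧ B x ((s ^ 2) x) = 0 ∧ B y (s y) = 0 ∧ B y ((s ^ 2) y) = 0 ∧ B x (s y) = 1 ∧ B x ((s ^ 2) y) = 1 := by
    rw [s1] at x1; rw [s2] at x2; rw [s3] at y1; rw [s4] at y2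
    revert x1 x2 y1 y2 z1 z2
    generalize B x (s x) = a, B x ((s ^ 2) x) = b, B y (s y) = c, B y ((s ^ 2) y) = d, B x (s y) = e, B x ((s ^ 2) y) = f
    revert a b c d e f; decide
  have k1 : ∀ i < 6, ∀ j < 6, i ≤ j → B ((bs s x y).getD i 0) ((bs s x y).getD j 0) = gr i j := fun i hi j hj hij => by
    interval_cases i <;> interval_cases j <;> simp only [bs, List.getD_cons_succ, List.getD_cons_zero, a1, a2, h.pp, h.p2,
      Nat.reduceAdd, Nat.reduceMod, pow_zero, pow_one, End.one_apply, h.xp, h.yp, h.y3, h.x3, map_add, k, h.alt _, h.xy] <;> decide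
  intro i hi j hj
  rcases le_total i j with e | e
  · exact k1 i hi j hj e
  · rw [h.symm, k1 j hj i hi e]; revert i j; decide

theorem B_vl (v : ℕ) {j : ℕ} (hj : j < 6) : B (vl (bs s x y) v) ((bs s x y).getD j 0) = if (lin GR v).testBit j then 1 else 0 := by
  have : B (vl (bs s x y) v) ((bs s x y).getD j 0) = _ := map_vl (b := bs s x y) (B.flip ((bs s x y).getD j 0)) v
  have k : (bs s x y).map (B.flip ((bs s x y).getD j 0)) = GR.map fun c => if c.testBit j then 1 else 0 := by
    have := fun i hi => h.gram i hi j hj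
    generalize (bs s x y).getD j 0 = m at this
    simp only [bs, GR, List.map_cons, List.map_nil, List.cons.injEq, and_true]
    exact ⟨this 0 (by decide), this 1 (by decide), this 2 (by decide), this 3 (by decide), this 4 (by decide), this 5 (by decide)⟩
  rw [this, k, vl_bit]

theorem inj {u v : ℕ} (hu : u < 64) (hv : v < 64) (e : vl (bs s x y) u = vl (bs s x y) v) : u = v := by
  have k : ∀ v < 64, (∀ j < 6, (lin GR v).testBit j = false) → v = 0 := by decide +kernel
  refine Nat.xor_eq_zero_iff.1 (k _ (Nat.xor_lt_two_pow (n := 6) hu hv) fun j hj => ?_)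
  have := h.B_vl (u ^^^ v) hj
  rw [vl_xor, e, two, map_zero, LinearMap.zero_apply] at this
  by_contra! H
  simp [H] at this

theorem surj (hc : Nat.card M = 64) (m : M) : ∃ v < 64, m = vl (bs s x y) v := by
  have : Finite M := Nat.finite_of_card_ne_zero (by omega)
  obtain ⟨v, e⟩ := ((Nat.bijective_iff_injective_and_card fun v : Fin 64 => vl (bs s x y) v).2
    ⟨fun u v e => Fin.ext (h.inj u.2 v.2 e), by simp [hc]⟩).2 m
  exact ⟨v, v.2, e.symm⟩

theorem dual (η : ℕ → ZMod 2) : ∃ u, ∀ j < 6, B (vl (bs s x y) u) ((bs s x y).getD j 0) = η j := by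
  have k : ∀ a b c d e f : ZMod 2, ∃ u < 64, ∀ j < 6, (if (lin GR u).testBit j then 1 else 0) = [a, b, c, d, e, f].getD j 0 := by
    decide +kernel
  obtain ⟨u, -, e⟩ := k (η 0) (η 1) (η 2) (η 3) (η 4) (η 5)
  exact ⟨u, fun j hj => by rw [h.B_vl u hj, e j hj]; interval_cases j <;> rfl⟩

theorem sing {q : M → ZMod 2} (h1 : ∀ u v, q (u + v) = q u + q v + B u v) (h2 : ∀ u, q (s u) = q u) {j : ℕ} (hj : j < 6) :
    q ((bs s x y).getD j 0) = 0 := by
  have k : ∀ i u, q ((s ^ i) u) = q u := fun i u => by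
    induction i with
    | zero => rfl
    | succ i ih => rw [pow_succ', End.mul_apply, h2, ih]
  have k1 := congrArg q h.x3
  have k2 := congrArg q h.y3
  have g1 : B (s x) x = gr 1 0 := h.gram 1 (by decide) 0 (by decide)
  have g2 : B ((s ^ 2) y) y = gr 5 3 := h.gram 5 (by decide) 3 (by decide)
  rw [h1, k, h2, g1, CharTwo.add_self_eq_zero] at k1
  rw [h1, k, k, g2, CharTwo.add_self_eq_zero] at k2
  interval_cases j <;> simp only [bs, List.getD_cons_succ, List.getD_cons_zero, k, h2, k1, k2] <;> rfl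

theorem tri (hc : Nat.card M = 64) (w2 : w * w = 1) (wr : (w * r) ^ 2 = 1) (ws : (w * s) ^ 3 = 1) :
    Act (bs s x y) w Wb ∨ Act (bs s x y) w Wa ∨ Act (bs s x y) w Wc := by
  obtain ⟨a0, l0, e0⟩ := h.surj hc (w x)
  obtain ⟨a1, l1, e1⟩ := h.surj hc (w (s x))
  obtain ⟨a3, l3, e3⟩ := h.surj hc (w y)
  obtain ⟨a4, l4, e4⟩ := h.surj hc (w (s y))
  have k1 : ∀ u, r (w (r u)) = w u := fun u => by
    have := congrArg (fun φ : End (ZMod 2) M => w (φ u)) wr
    simpa [sq, ← End.mul_apply w w, w2] using this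
  have k2 : ∀ u, w (r u) = r (r (w u)) := fun u => by rw [← k1 u, h.rr]
  have lR : ∀ v, lin R6 v < 64 := lin_lt (by decide)
  have hA : Act (bs s x y) w [a0, a1, lin R6 (lin R6 a1), a3, a4, lin R6 (lin R6 a4)] := Act.of (by
    simp only [List.map_cons, List.map_nil, ← h.act_r _, ← e0, ← e1, ← e3, ← e4, ← k2, h.r1, h.rx, h.ry]; rfl)
  have lW := lin_lt (c := [a0, a1, lin R6 (lin R6 a1), a3, a4, lin R6 (lin R6 a4)]) (by simp [*])
  have k : (allLt 64 fun a0 => HeR.imp (Nat.beq (lin R6 a0) a0) (allLt 64 fun a3 => HeR.imp (Nat.beq (lin R6 a3) a3)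
      (allLt 64 fun a1 => force (lin R6 (lin R6 a1)) fun a2 => allLt 64 fun a4 => force (lin R6 (lin R6 a4)) fun a5 =>
        HeR.imp (allLt 6 fun i => Nat.beq (lin [a0, a1, a2, a3, a4, a5] (lin [a0, a1, a2, a3, a4, a5] (Nat.pow 2 i))) (Nat.pow 2 i))
          (HeR.imp (allLt 6 fun i => Nat.beq (lin [a0, a1, a2, a3, a4, a5] (lin S6 (lin [a0, a1, a2, a3, a4, a5] (lin S6
            (lin [a0, a1, a2, a3, a4, a5] (lin S6 (Nat.pow 2 i))))))) (Nat.pow 2 i))
          ([Wb, Wa, Wc].contains [a0, a1, a2, a3, a4, a5]))))) = true := by decide +kernel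
  simp only [allLt_iff, HeR.imp_iff, nbeq, force_eq, List.contains_iff_mem, List.mem_cons, List.not_mem_nil, or_false] at k
  have l2 : ∀ i < 6, Nat.pow 2 i < 64 := by decide
  have := k a0 l0 (h.inj (lR _) l0 (by rw [← h.act_r, ← e0]; simpa only [h.rx] using k1 x)) a3 l3
    (h.inj (lR _) l3 (by rw [← h.act_r, ← e3]; simpa only [h.ry] using k1 y)) a1 l1 a4 l4
    (fun i hi => h.inj (lW _) (l2 i hi) (by rw [← hA, ← hA, ← End.mul_apply, w2]; rfl))
    (fun i hi => h.inj (lW _) (l2 i hi) (by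
      rw [← hA, ← h.act_s, ← hA, ← h.act_s, ← hA, ← h.act_s]; exact congrArg (fun φ : End (ZMod 2) M => φ _) ws))
  rcases this with e | e | e <;> rw [e] at hA <;> simp only [hA, true_or, or_true]

theorem act_swap (hA : Act (bs s x y) w Wc) : Act (bs (s ^ 6) y x) w Wa := by
  have e : bs (s ^ 6) y x = [8, 48, 24, 1, 5, 7].map (vl (bs s x y)) := by
    simp only [List.map_cons, List.map_nil, vl_bs]
    simp [bs, ← pow_mul, pow_eq_pow_mod 12 h.s7, h.xp, h.yp, Nat.testBit, add_comm, add_left_comm]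
  refine Act.of ?_
  rw [e]
  simp only [List.map_cons, List.map_nil, hA _, Wa]
  simp only [← List.map_cons, ← List.map_nil (f := vl (bs s x y)), vl_vl]
  rfl

end NF

end Cfsg.Agent.HeU
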