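import Cfsg.Agent.HeU.Mod
import Cfsg.Agent.HeU.L3
import Cfsg.Agent.PGrp.ES

/-! A group `H = 2^{1+6}.L₃(2)` (`Bas`) against a coded reference group (`CG`): the graph `Dl` of `Q ≅ Q₀`, its normaliser,
the relation `Rel`, counting (`ncard_eq`), squares (`sq_spec`) and the split case (`iso`). -/

set_option autoImplicit false
set_option maxRecDepth 100000
set_option linter.unusedSectionVars false

namespace Cfsg.Agent.HeU

open Cfsg.Agent.Comp Cfsg.Agent.Spor Cfsg.Agent.BG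

variable {K K' : Type*} [Group K] [Group K'] {Y : ℕ → K} {τ : K}

def pr (Y : ℕ → K) (v : ℕ) : ℕ → K := Nat.rec 1 fun i ih => ih * if v.testBit i then Y i else 1

theorem pr_succ (v n : ℕ) : pr Y v (n + 1) = pr Y v n * if v.testBit n then Y n else 1 := rfl

theorem pr_mem {S : Subgroup K} (v : ℕ) {n : ℕ} (h : ∀ i < n, Y i ∈ S) : pr Y v n ∈ S := by
  induction n with
  | zero => exact one_mem _
  | succ n ih => exact mul_mem (ih fun i hi => h i (by omega)) (by split_ifs; exacts [h n (by omega), one_mem _])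

theorem map_pr (φ : K →* K') (v n : ℕ) : φ (pr Y v n) = pr (fun i => φ (Y i)) v n := by
  induction n with
  | zero => exact map_one _
  | succ n ih => rw [pr_succ, pr_succ, map_mul, ih, apply_ite φ, map_one]

theorem pr_zero (n : ℕ) : pr Y 0 n = 1 := by
  induction n with
  | zero => rfl
  | succ n ih => simp [pr_succ, ih]

theorem pr_xor (u v : ℕ) {n : ℕ} (h1 : ∀ i < n, Y i * Y i = 1) (h2 : ∀ i < n, ∀ j < n, Commute (Y i) (Y j)) :
    pr Y u n * pr Y v n = pr Y (u ^^^ v) n := by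
  induction n with
  | zero => exact one_mul _
  | succ n ih =>
    have c : Commute (pr Y v n) (Y n) := Subgroup.mem_centralizer_singleton_iff.1
      (pr_mem v fun i hi => Subgroup.mem_centralizer_singleton_iff.2 (h2 i (by omega) n (by omega)))
    rw [pr_succ, pr_succ, pr_succ, ← ih (fun i hi => h1 i (by omega)) fun i hi j hj => h2 i (by omega) j (by omega), Nat.testBit_xor]
    cases u.testBit n <;> cases v.testBit n <;> simp [mul_assoc, ← c.eq]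
    rw [← mul_assoc, ← c.eq, mul_assoc, h1 n (by omega), mul_one]

theorem pr_pow {i : ℕ} (hi : i < 6) : pr Y (2 ^ i) 6 = Y i := by
  interval_cases i <;> simp [pr_succ, show ∀ v, pr Y v 0 = 1 from fun _ => rfl, Nat.testBit]

theorem mk_eq (hc : τ ∈ Subgroup.center K) (h2 : τ * τ = 1) {a b : K} :
    (a : K ⧸ Subgroup.zpowers τ) = b ↔ a = b ∨ a = b * τ := by
  rw [eq_comm, QuotientGroup.eq, ← inv_mul_eq_iff_eq_mul, eq_comm (a := a), ← inv_mul_eq_one]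
  refine ⟨fun ⟨n, e⟩ => ?_, fun e => e.elim (· ▸ one_mem _) (· ▸ Subgroup.mem_zpowers _)⟩
  rw [← e]
  rcases Int.even_or_odd' n with ⟨k, rfl | rfl⟩ <;> simp only [zpow_add, zpow_mul, zpow_two, h2] <;> simp

def gb (i j : ℕ) : Bool := tb (nthL 0 GR i) j

structure Gm (τ : K) (Y : ℕ → K) : Prop where
  tc : τ ∈ Subgroup.center K
  t2 : τ * τ = 1
  sq : ∀ i < 6, Y i * Y i = 1
  cm : ∀ i < 6, ∀ j < 6, Y i * Y j = Y j * Y i * if gb i j then τ else 1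

def Gm.Dl (h : Gm τ Y) : Subgroup K where
  carrier := {k | ∃ v < 64, k = pr Y v 6 ∨ k = pr Y v 6 * τ}
  one_mem' := ⟨0, by decide, .inl (pr_zero 6).symm⟩
  mul_mem' := by
    have := PGrp.normal_of_le_center (Subgroup.zpowers_le.2 h.tc)
    rintro a b ⟨u, hu, e1⟩ ⟨v, hv, e2⟩
    refine ⟨_, Nat.xor_lt_two_pow (n := 6) hu hv, ?_⟩
    rw [← mk_eq h.tc h.t2] at e1 e2 ⊢
    rw [QuotientGroup.mk_mul, e1, e2]
    simp only [← QuotientGroup.mk'_apply, map_pr]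
    refine pr_xor u v (fun i hi => by rw [← map_mul, h.sq i hi, map_one]) fun i hi j hj => ?_
    rw [Commute, SemiconjBy, ← map_mul, ← map_mul, QuotientGroup.mk'_apply, QuotientGroup.mk'_apply, mk_eq h.tc h.t2, h.cm i hi j hj]
    split_ifs <;> simp
  inv_mem' := by
    have := PGrp.normal_of_le_center (Subgroup.zpowers_le.2 h.tc)
    rintro a ⟨u, hu, e1⟩
    refine ⟨u, hu, ?_⟩
    rw [← mk_eq h.tc h.t2] at e1 ⊢
    rw [QuotientGroup.mk_inv, e1, inv_eq_iff_mul_eq_one]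
    simp only [← QuotientGroup.mk'_apply, map_pr]
    rw [pr_xor u u (fun i hi => by rw [← map_mul, h.sq i hi, map_one]) fun i hi j hj => ?_, Nat.xor_self, pr_zero]
    rw [Commute, SemiconjBy, ← map_mul, ← map_mul, QuotientGroup.mk'_apply, QuotientGroup.mk'_apply, mk_eq h.tc h.t2, h.cm i hi j hj]
    split_ifs <;> simp

theorem Gm.mem_Dl (h : Gm τ Y) {k : K} : k ∈ h.Dl ↔ ∃ v < 64, k = pr Y v 6 ∨ k = pr Y v 6 * τ := Iff.rfl

def cl (W : List ℕ) (l i : ℕ) : ℕ := nthL 0 (nthL [1, 2, 4, 8, 16, 32] [S6, R6, W] l) i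

structure Bas {H : Type*} [Group H] (Q : Subgroup H) [Q.Normal] (t : H) (X g : ℕ → H) (W : List ℕ) : Prop extends Gm t X where
  t1 : t ≠ 1
  cq : ∀ c, (∀ q ∈ Q, Commute c q) → c = 1 ∨ c = t
  mem : ∀ i, X i ∈ Q
  tq : t ∈ Q
  gen : ∀ q ∈ Q, ∃ v < 64, q = pr X v 6 ∨ q = pr X v 6 * t
  ind : ∀ v < 64, (pr X v 6 = 1 ∨ pr X v 6 = t) → v = 0
  act : ∀ l, ∀ η : ℕ → Prop, ∃ q ∈ Q, ∀ i < 6, (η i → g l * q * X i * (g l * q)⁻¹ = pr X (cl W l i) 6 * t) ∧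
    (¬ η i → g l * q * X i * (g l * q)⁻¹ = pr X (cl W l i) 6)
  tri : Tri fun l => (g l : H ⧸ Q)
  card : Nat.card H = 21504
  cardQ : Nat.card Q = 128

def lg (mul : ℕ → ℕ → ℕ) (one : ℕ) (B : List ℕ) (v : ℕ) : ℕ → ℕ :=
  Nat.rec one fun i ih => Bool.rec ih (mul ih (nthL one B i)) (tb v i)

def eqz (mul : ℕ → ℕ → ℕ) (z a b : ℕ) : Bool := force a fun a => force b fun b => bor (Nat.beq a b) (Nat.beq (mul a z) b)

def chk (mul : ℕ → ℕ → ℕ) (one z : ℕ) (B L W LQ LA : List ℕ) : Bool :=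
  band (Nat.beq (mul z z) one) (band (!Nat.beq z one) (band (allLt 6 fun i => band (Nat.beq (mul (nthL one B i) (nthL one B i)) one)
    (allLt 6 fun j => Nat.beq (mul (nthL one B i) (nthL one B j)) (mul (mul (nthL one B j) (nthL one B i)) (bif' (gb i j) z one))))
  (band (allLt 4 fun l => allLt 6 fun i => band (Nat.blt (cl W l i) 64)
    (eqz mul z (mul (lg mul one B (cl W l i) 6) (nthL one L l)) (mul (nthL one L l) (nthL one B i))))
  (band (allLt 64 fun v => band (Nat.beq (nthL one LQ v) (lg mul one B v 6)) (HeR.imp (eqz mul z (nthL one LQ v) one) (Nat.beq v 0)))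
  (band (allLt 168 fun j => Nat.beq (nthL one LA j) (evm mul one L (wd j))) (band (Nat.beq (lenL L) 3) (band (Nat.beq (lenL LQ) 64)
  (band (Nat.beq (nthL one LA 0) one) (Nat.beq (mul (nthL one L 2) (nthL one L 2)) one)))))))))

structure CG (Γ : Type*) [Group Γ] where
  V : ℕ → Prop
  F : ℕ → Γ
  mul : ℕ → ℕ → ℕ
  one : ℕ
  z : ℕ
  B : List ℕ
  L : List ℕ
  W : List ℕ
  LQ : List ℕ
  LA : List ℕ
  vmul : ∀ {a b}, V a → V b → V (mul a b)
  fmul : ∀ {a b}, V a → V b → F (mul a b) = F a * F b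
  inj : ∀ {a b}, V a → V b → F a = F b → a = b
  v0 : ∀ n ∈ one :: z :: B ++ L, V n
  fone : F one = 1
  cen : F z ∈ Subgroup.center Γ
  cent : ∀ k, (∀ i < 6, Commute k (F (nthL one B i))) → k = 1 ∨ k = F z
  ok : chk mul one z B L W LQ LA = true

namespace CG
variable {Γ : Type*} [Group Γ] (C : CG Γ) {a n m : ℕ}

abbrev b (i : ℕ) : ℕ := nthL C.one C.B i
abbrev g (i : ℕ) : ℕ := nthL C.one C.L i
abbrev q (i : ℕ) : ℕ := nthL C.one C.LQ i
def e (i : ℕ) : ℕ := C.mul (C.q (Nat.land i 63)) (nthL C.one C.LA (Nat.shiftRight i 6))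

theorem vone : C.V C.one := C.v0 _ (by simp)
theorem vz : C.V C.z := C.v0 _ (by simp)
theorem vb (i : ℕ) : C.V (C.b i) := (nthL_mem_or C.one C.B i).elim (fun h => C.v0 _ (by simp [h])) fun h => by rw [b, h]; exact C.vone
theorem vg (i : ℕ) : C.V (C.g i) := (nthL_mem_or C.one C.L i).elim (fun h => C.v0 _ (by simp [h])) fun h => by rw [g, h]; exact C.vone

theorem lg_spec (v n : ℕ) : C.V (lg C.mul C.one C.B v n) ∧ C.F (lg C.mul C.one C.B v n) = pr (fun i => C.F (C.b i)) v n := by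
  induction n with
  | zero => exact ⟨C.vone, C.fone⟩
  | succ n ih =>
    rw [pr_succ, ← ih.2, show lg C.mul C.one C.B v (n + 1) = Bool.rec (lg C.mul C.one C.B v n)
      (C.mul (lg C.mul C.one C.B v n) (C.b n)) (tb v n) from rfl, tb_eq]
    cases v.testBit n
    exacts [⟨ih.1, (mul_one _).symm⟩, ⟨C.vmul ih.1 (C.vb n), C.fmul ih.1 (C.vb n)⟩]

theorem evm_spec (w : List ℕ) : C.V (evm C.mul C.one C.L w) ∧ C.F (evm C.mul C.one C.L w) = ev (fun l => C.F (C.g l)) w := by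
  induction w with
  | nil => exact ⟨C.vone, C.fone⟩
  | cons l w ih => exact ⟨C.vmul ih.1 (C.vg l), (C.fmul ih.1 (C.vg l)).trans (congrArg (· * _) ih.2)⟩

variable {C}
theorem eq_iff (ha : C.V a) (hb : C.V n) : a = n ↔ C.F a = C.F n := ⟨congrArg _, C.inj ha hb⟩

theorem eqz_iff (ha : C.V a) (hb : C.V n) : eqz C.mul C.z a n = true ↔ C.F a = C.F n ∨ C.F a * C.F C.z = C.F n := by
  simp only [eqz, force_eq, bor_eq, Bool.or_eq_true, nbeq, eq_iff ha hb, eq_iff (C.vmul ha C.vz) hb, C.fmul ha C.vz]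

variable (C)
theorem spec : Gm (C.F C.z) (fun i => C.F (C.b i)) ∧ C.F C.z ≠ 1 ∧ (∀ l, ∀ i < 6, cl C.W l i < 64 ∧
    (C.F (C.g l) * C.F (C.b i) * (C.F (C.g l))⁻¹ = pr (fun i => C.F (C.b i)) (cl C.W l i) 6 ∨
    C.F (C.g l) * C.F (C.b i) * (C.F (C.g l))⁻¹ = pr (fun i => C.F (C.b i)) (cl C.W l i) 6 * C.F C.z)) ∧
    (∀ v < 64, C.V (C.q v) ∧ C.F (C.q v) = pr (fun i => C.F (C.b i)) v 6 ∧ (C.F (C.q v) = 1 ∨ C.F (C.q v) * C.F C.z = 1 → v = 0)) ∧
    (∀ j < 168, C.V (nthL C.one C.LA j) ∧ C.F (nthL C.one C.LA j) = ev (fun l => C.F (C.g l)) (wd j)) ∧ C.LQ.length = 64 ∧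
    nthL C.one C.LA 0 = C.one ∧ C.F (C.g 2) * C.F (C.g 2) = 1 := by
  have := C.ok
  simp only [chk, band_eq, Bool.and_eq_true, nbeq, nblt, allLt_iff, Bool.not_eq_true', nbeq_false, HeR.imp_iff, lenL_eq, bif'_eq] at this
  obtain ⟨h1, h2, h3, h4, h5, h6, h7, h8, h9, h10⟩ := this
  refine ⟨⟨C.cen, by rw [← C.fmul C.vz C.vz, h1, C.fone], fun i hi => by rw [← C.fmul (C.vb i) (C.vb i), (h3 i hi).1, C.fone],
    fun i hi j hj => ?_⟩, fun e => h2 (C.inj C.vz C.vone (e.trans C.fone.symm)), fun l i hi => ?_, fun v hv => ?_,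
    fun j hj => h6 j hj ▸ C.evm_spec _, h8, h9, by rw [← C.fmul (C.vg 2) (C.vg 2), h10, C.fone]⟩
  · rw [← C.fmul (C.vb i) (C.vb j), (h3 i hi).2 j hj, C.fmul (C.vmul (C.vb j) (C.vb i)), C.fmul (C.vb j) (C.vb i),
      apply_ite C.F, C.fone]
    split_ifs; exacts [C.vz, C.vone]
  · wlog hl : l < 4 generalizing l
    · have e1 : C.g l = C.g 3 := by rw [g, g, nthL_eq, nthL_eq, List.getD_eq_default _ _ (by omega), List.getD_eq_default _ _ (by omega)]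
      have e2 : cl C.W l i = cl C.W 3 i := by
        rw [cl, cl, nthL_eq _ _ l, List.getD_eq_default _ _ (by simp; omega)]; rfl
      rw [e1, e2]; exact this 3 (by decide)
    obtain ⟨k1, k2⟩ := h4 l hl i hi
    rw [eqz_iff (C.vmul (C.lg_spec ..).1 (C.vg l)) (C.vmul (C.vg l) (C.vb i)), C.fmul (C.lg_spec ..).1 (C.vg l),
      C.fmul (C.vg l) (C.vb i), (C.lg_spec ..).2] at k2
    exact ⟨k1, k2.imp (fun e => by rw [← e, mul_inv_cancel_right]) fun e => by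
      rw [← e, mul_assoc _ (C.F (C.g l)), Subgroup.mem_center_iff.1 C.cen, ← mul_assoc, mul_inv_cancel_right]⟩
  · obtain ⟨k1, k2⟩ := h5 v hv
    have hV : C.V (C.q v) := by rw [q, k1]; exact (C.lg_spec ..).1
    exact ⟨hV, by rw [q, k1]; exact (C.lg_spec ..).2, fun e => k2 (by rwa [eqz_iff hV C.vone, C.fone])⟩

theorem vq {v : ℕ} (hv : v < 64) : C.V (C.q v) := (C.spec.2.2.2.1 v hv).1

theorem e_spec {i : ℕ} (hi : i < 10752) : C.V (C.e i) ∧
    C.F (C.e i) = pr (fun i => C.F (C.b i)) (i % 64) 6 * ev (fun l => C.F (C.g l)) (wd (i / 64)) := by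
  have h1 := C.spec.2.2.2.1 (i % 64) (by omega)
  have h2 := C.spec.2.2.2.2.1 (i / 64) (by omega)
  rw [e, show Nat.land i 63 = i % 64 from Nat.and_two_pow_sub_one_eq_mod i 6, show Nat.shiftRight i 6 = i / 64 from
    Nat.shiftRight_eq_div_pow i 6]
  exact ⟨C.vmul h1.1 h2.1, by rw [C.fmul h1.1 h2.1, h1.2.1, h2.2]⟩

theorem e_lt {i : ℕ} (hi : i < 64) : C.e i = C.q i := by
  rw [e, show Nat.land i 63 = i % 64 from Nat.and_two_pow_sub_one_eq_mod i 6, show Nat.shiftRight i 6 = i / 64 from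
    Nat.shiftRight_eq_div_pow i 6, Nat.mod_eq_of_lt hi, Nat.div_eq_of_lt hi, C.spec.2.2.2.2.2.2.1]
  exact C.inj (C.vmul (C.vq hi) C.vone) (C.vq hi) (by rw [C.fmul (C.vq hi) C.vone, C.fone, mul_one])

def inQ (n : ℕ) : Bool := bor (memL n C.LQ) (memL (C.mul n C.z) C.LQ)
def sqv (ε : Bool) (n : ℕ) : ℕ := force n fun n => force (C.mul n n) fun s =>
  Bool.rec (Bool.rec 0 (Bool.rec 2 1 (band ε (!C.inQ n))) (Nat.beq s C.z)) (Bool.rec 1 2 (band ε (!C.inQ n))) (Nat.beq s C.one)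

end CG

variable {H Γ : Type*} [Group H] [Finite H] [Group Γ] [Finite Γ] {Q : Subgroup H} [Q.Normal] {t : H} {X g : ℕ → H} {C : CG Γ}

namespace Bas
variable (h : Bas Q t X g C.W) {c c' x : H} {k k' : Γ} {n n' : ℕ}
include h

theorem gm : Gm (t, C.F C.z) fun i => (X i, C.F (C.b i)) :=
  ⟨Subgroup.mem_center_iff.2 fun x => Prod.ext (Subgroup.mem_center_iff.1 h.tc _) (Subgroup.mem_center_iff.1 C.cen _),
    Prod.ext h.t2 C.spec.1.t2, fun i hi => Prod.ext (h.sq i hi) (C.spec.1.sq i hi), fun i hi j hj => by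
      have := h.cm i hi j hj
      have := C.spec.1.cm i hi j hj
      split_ifs at * <;> exact Prod.ext ‹_› ‹_›⟩

abbrev Δ : Subgroup (H × Γ) := h.gm.Dl
abbrev D : Subgroup (H × Γ) := N[h.Δ]

theorem mem_Δ : (c, k) ∈ h.Δ ↔ ∃ v < 64, (c = pr X v 6 ∧ k = C.F (C.q v)) ∨ (c = pr X v 6 * t ∧ k = C.F (C.q v) * C.F C.z) := by
  rw [Gm.mem_Dl]
  refine exists_congr fun v => and_congr_right fun hv => ?_
  have : pr (fun i => (X i, C.F (C.b i))) v 6 = (pr X v 6, C.F (C.q v)) := by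
    rw [(C.spec.2.2.2.1 v hv).2.1]
    exact Prod.ext (map_pr (Y := fun i => (X i, C.F (C.b i))) (MonoidHom.fst ..) v 6)
      (map_pr (Y := fun i => (X i, C.F (C.b i))) (MonoidHom.snd ..) v 6)
  simp only [this, Prod.mk_mul_mk, Prod.mk.injEq]

theorem ct (x : H) : Commute x t := Subgroup.mem_center_iff.1 h.tc x

theorem τΔ : (t, C.F C.z) ∈ h.Δ := ⟨0, by decide, .inr (by rw [pr_zero, one_mul])⟩

theorem Δ1 (e : (c, 1) ∈ h.Δ) : c = 1 := by
  obtain ⟨v, hv, e | e⟩ := h.mem_Δ.1 e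
  · rw [e.1, (C.spec.2.2.2.1 v hv).2.2 (.inl e.2.symm), pr_zero]
  · obtain rfl := (C.spec.2.2.2.1 v hv).2.2 (.inr e.2.symm)
    exact absurd (by simpa [(C.spec.2.2.2.1 0 hv).2.1, pr_zero] using e.2.symm) C.spec.2.1

theorem Δ2 (e : (1, k) ∈ h.Δ) : k = 1 := by
  obtain ⟨v, hv, e | e⟩ := h.mem_Δ.1 e
  · rw [e.2, (C.spec.2.2.2.1 v hv).2.1, h.ind v hv (.inl e.1.symm), pr_zero]
  · obtain rfl := h.ind v hv (.inr (by rw [eq_inv_of_mul_eq_one_left e.1.symm, inv_eq_of_mul_eq_one_right h.t2]))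
    exact absurd (by simpa [pr_zero] using e.1.symm) h.t1

theorem Δfst (e : (c, k) ∈ h.Δ) (e' : (c', k) ∈ h.Δ) : c = c' :=
  mul_inv_eq_one.1 (h.Δ1 (by simpa using mul_mem e (inv_mem e')))

theorem Δsnd (e : (c, k) ∈ h.Δ) (e' : (c, k') ∈ h.Δ) : k = k' :=
  mul_inv_eq_one.1 (h.Δ2 (by simpa using mul_mem e (inv_mem e')))

theorem ΔQ (e : (c, k) ∈ h.Δ) : c ∈ Q := by
  obtain ⟨v, -, e | e⟩ := h.mem_Δ.1 e <;> rw [e.1]
  exacts [pr_mem v fun i _ => h.mem i, mul_mem (pr_mem v fun i _ => h.mem i) h.tq]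

theorem exΔ (hc : c ∈ Q) : ∃ k, (c, k) ∈ h.Δ := by
  obtain ⟨v, hv, e | e⟩ := h.gen c hc
  exacts [⟨_, h.mem_Δ.2 ⟨v, hv, .inl ⟨e, rfl⟩⟩⟩, ⟨_, h.mem_Δ.2 ⟨v, hv, .inr ⟨e, rfl⟩⟩⟩]

theorem tD : (t, 1) ∈ h.D := Subgroup.center_le_normalizer _
  (Subgroup.mem_center_iff.2 fun x => Prod.ext (h.ct _) (by simp))

theorem zD : (1, C.F C.z) ∈ h.D := Subgroup.center_le_normalizer _
  (Subgroup.mem_center_iff.2 fun x => Prod.ext (by simp) (Subgroup.mem_center_iff.1 C.cen _))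

theorem D1 (e : (c, 1) ∈ h.D) : c = 1 ∨ c = t := h.cq c fun q hq => by
  obtain ⟨k, e1⟩ := h.exΔ hq
  exact mul_inv_eq_iff_eq_mul.1 (h.Δfst (by simpa using conj_mem_of_norm e e1) e1)

theorem D2 (e : (1, k) ∈ h.D) : k = 1 ∨ k = C.F C.z := C.cent k fun i hi => by
  have e1 : (X i, C.F (C.b i)) ∈ h.Δ := ⟨2 ^ i, Nat.pow_lt_pow_right (n := 6) (by decide) hi, .inl (by rw [pr_pow hi])⟩
  exact mul_inv_eq_iff_eq_mul.1 (h.Δsnd (by simpa using conj_mem_of_norm e e1) e1)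

theorem Dfst (e : (c, k) ∈ h.D) (e' : (c', k) ∈ h.D) : c = c' ∨ c = c' * t := by
  simpa only [inv_mul_eq_one, inv_mul_eq_iff_eq_mul, eq_comm (a := c'), mul_one] using
    h.D1 (c := c'⁻¹ * c) (by simpa using mul_mem (inv_mem e') e)

theorem Dsnd (e : (c, k) ∈ h.D) (e' : (c, k') ∈ h.D) : k = k' ∨ k * C.F C.z = k' := by
  simpa only [inv_mul_eq_one, inv_mul_eq_iff_eq_mul, eq_comm (a := k'), mul_one] using
    h.D2 (k := k⁻¹ * k') (by simpa using mul_mem (inv_mem e) e')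

theorem Dt (e : (c, k) ∈ h.D) : (c * t, k) ∈ h.D := by simpa using mul_mem e h.tD
theorem Dz (e : (c, k) ∈ h.D) : (c, k * C.F C.z) ∈ h.D := by simpa using mul_mem e h.zD

theorem kerQ (e : (c, k) ∈ h.D) (hc : c ∈ Q) : (c, k) ∈ h.Δ ∨ (c * t, k) ∈ h.Δ := by
  obtain ⟨k', e1⟩ := h.exΔ hc
  rcases h.Dsnd (normG _ e1) e with rfl | rfl
  exacts [.inl e1, .inr (mul_mem e1 h.τΔ)]

theorem gD (l : ℕ) : ∃ q ∈ Q, (g l * q, C.F (C.g l)) ∈ h.D := by
  obtain ⟨q, hq, e⟩ := h.act l fun i => C.F (C.g l) * C.F (C.b i) * (C.F (C.g l))⁻¹ ≠ pr (fun i => C.F (C.b i)) (cl C.W l i) 6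
  refine ⟨q, hq, Subgroup.mem_normalizer_fintype ?_⟩
  have k : ∀ v, (g l * q, C.F (C.g l)) * pr (fun i => (X i, C.F (C.b i))) v 6 * (g l * q, C.F (C.g l))⁻¹ ∈ h.Δ := fun v => by
    rw [← MulAut.conj_apply, ← MulEquiv.coe_toMonoidHom, map_pr]
    refine pr_mem v fun i hi => h.mem_Δ.2 ⟨_, (C.spec.2.2.1 l i hi).1, ?_⟩
    rw [(C.spec.2.2.2.1 _ (C.spec.2.2.1 l i hi).1).2.1]
    by_cases e1 : C.F (C.g l) * C.F (C.b i) * (C.F (C.g l))⁻¹ = pr (fun i => C.F (C.b i)) (cl C.W l i) 6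
    exacts [.inl ⟨(e i hi).2 (not_not.2 e1), e1⟩, .inr ⟨(e i hi).1 e1, (C.spec.2.2.1 l i hi).2.resolve_left e1⟩]
  rintro _ ⟨v, -, rfl | rfl⟩
  · exact k v
  · rw [← mul_assoc, mul_assoc _ (t, _), ← Subgroup.mem_center_iff.1 h.gm.tc, ← mul_assoc]
    exact mul_mem (k v) h.τΔ

noncomputable def G (l : ℕ) : H := g l * (h.gD l).choose

theorem GD (l : ℕ) : (h.G l, C.F (C.g l)) ∈ h.D := (h.gD l).choose_spec.2

theorem mk_G (l : ℕ) : (h.G l : H ⧸ Q) = g l := QuotientGroup.mk_mul_of_mem _ (h.gD l).choose_spec.1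

theorem evD (w : List ℕ) : (ev h.G w, ev (fun l => C.F (C.g l)) w) ∈ h.D := by
  induction w with
  | nil => exact one_mem _
  | cons l w ih => exact mul_mem ih (h.GD l)

noncomputable def G0 (i : ℕ) : H := pr X (i % 64) 6 * ev h.G (wd (i / 64))

theorem G0D {i : ℕ} (hi : i < 10752) : (h.G0 i, C.F (C.e i)) ∈ h.D := by
  rw [(C.e_spec hi).2, ← (C.spec.2.2.2.1 _ (Nat.mod_lt i (by decide))).2.1]
  exact mul_mem (normG _ (h.mem_Δ.2 ⟨_, Nat.mod_lt i (by decide), .inl ⟨rfl, rfl⟩⟩)) (h.evD _)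

theorem cover (c : H) : ∃ i < 10752, c = h.G0 i ∨ c = h.G0 i * t := by
  obtain ⟨j, hj, e⟩ := h.tri.cov c
  have : c * (ev h.G (wd j))⁻¹ ∈ Q := by
    rw [← QuotientGroup.eq_one_iff, QuotientGroup.mk_mul, QuotientGroup.mk_inv, mul_inv_eq_one, e, ← QuotientGroup.mk'_apply, map_ev]
    simp only [QuotientGroup.mk'_apply, h.mk_G]
  obtain ⟨v, hv, e1⟩ := h.gen _ this
  refine ⟨v + 64 * j, by omega, ?_⟩
  rw [G0, Nat.add_mul_mod_self_left, Nat.mod_eq_of_lt hv, Nat.add_mul_div_left _ _ (by decide), Nat.div_eq_of_lt hv, zero_add,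
    mul_assoc, (h.ct _).eq, ← mul_assoc]
  simpa only [mul_inv_eq_iff_eq_mul] using e1

theorem cover' (c : H) : ∃ i < 10752, (c, C.F (C.e i)) ∈ h.D := by
  obtain ⟨i, hi, rfl | rfl⟩ := h.cover c
  exacts [⟨i, hi, h.G0D hi⟩, ⟨i, hi, h.Dt (h.G0D hi)⟩]

theorem ncard_eq (p : ℕ → Bool) : {c | ∃ i < 10752, p i = true ∧ (c, C.F (C.e i)) ∈ h.D}.ncard = 2 * countLt 10752 p := by
  let Φ : Fin 10752 × Bool → H := fun x => h.G0 x.1 * if x.2 then t else 1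
  have hb : Function.Bijective Φ := (Nat.bijective_iff_surjective_and_card Φ).2 ⟨fun c => by
    obtain ⟨i, hi, rfl | rfl⟩ := h.cover c
    exacts [⟨(⟨i, hi⟩, false), mul_one _⟩, ⟨(⟨i, hi⟩, true), rfl⟩], by simp [h.card]⟩
  have : {c | ∃ i < 10752, p i = true ∧ (c, C.F (C.e i)) ∈ h.D} = Φ '' ({i : Fin 10752 | p i = true} ×ˢ Set.univ) := by
    ext c
    constructor
    · rintro ⟨i, hi, h1, h2⟩
      rcases h.Dfst h2 (h.G0D hi) with rfl | rfl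
      exacts [⟨(⟨i, hi⟩, false), ⟨h1, trivial⟩, mul_one _⟩, ⟨(⟨i, hi⟩, true), ⟨h1, trivial⟩, rfl⟩]
    · rintro ⟨⟨i, _ | _⟩, ⟨h1, -⟩, rfl⟩
      exacts [⟨i, i.2, h1, by simpa [Φ] using h.G0D i.2⟩, ⟨i, i.2, h1, h.Dt (h.G0D i.2)⟩]
  rw [this, Set.ncard_image_of_injective _ hb.1, Set.ncard_prod, countLt_eq, mul_comm, ← Set.ncard_image_of_injective _ Fin.val_injective,
    ← Set.ncard_coe_finset]
  congr 1
  · simp
  · congr 1; ext i
    simp only [Set.mem_image, Set.mem_ofPred_eq, Finset.coe_filter, Finset.mem_range]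
    exact ⟨by rintro ⟨i, h1, rfl⟩; exact ⟨i.2, h1⟩, fun h => ⟨⟨i, h.1⟩, h.2, rfl⟩⟩

theorem inQ_iff (hn : C.V n) (e : (c, C.F n) ∈ h.D) : C.inQ n = true ↔ c ∈ Q := by
  have k : ∀ {n}, C.V n → (n ∈ C.LQ ↔ ∃ v < 64, C.F n = C.F (C.q v)) := fun hn => by
    rw [List.mem_iff_getElem, ← C.spec.2.2.2.2.2.1]
    refine ⟨fun ⟨v, hv, e⟩ => ⟨v, hv, by rw [CG.q, nthL_eq, List.getD_eq_getElem _ _ hv, e]⟩, fun ⟨v, hv, e⟩ => ⟨v, hv, ?_⟩⟩
    rw [C.inj hn (C.vq (C.spec.2.2.2.2.2.1 ▸ hv)) e, CG.q, nthL_eq, List.getD_eq_getElem _ _ hv]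
  rw [CG.inQ, bor_eq, Bool.or_eq_true, memL_iff, memL_iff, k hn, k (C.vmul hn C.vz), C.fmul hn C.vz]
  constructor
  · rintro (⟨v, hv, e1⟩ | ⟨v, hv, e1⟩)
    · rcases h.Dfst (e1 ▸ e) (normG _ (h.mem_Δ.2 ⟨v, hv, .inl ⟨rfl, rfl⟩⟩)) with rfl | rfl
      exacts [pr_mem v fun i _ => h.mem i, mul_mem (pr_mem v fun i _ => h.mem i) h.tq]
    · rcases h.Dfst (e1 ▸ h.Dz e) (normG _ (h.mem_Δ.2 ⟨v, hv, .inl ⟨rfl, rfl⟩⟩)) with rfl | rfl
      exacts [pr_mem v fun i _ => h.mem i, mul_mem (pr_mem v fun i _ => h.mem i) h.tq]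
  · intro hc
    rcases h.kerQ e hc with e1 | e1 <;> obtain ⟨v, hv, e2 | e2⟩ := h.mem_Δ.1 e1
    all_goals first | exact .inl ⟨v, hv, e2.2⟩ | exact .inr ⟨v, hv, by rw [e2.2, mul_assoc, C.spec.1.t2, mul_one]⟩

theorem w2 : h.G 2 * h.G 2 = 1 ∨ h.G 2 * h.G 2 = t := h.D1 (C.spec.2.2.2.2.2.2.2 ▸ mul_mem (h.GD 2) (h.GD 2))

theorem sqQ (e : (c, k) ∈ h.D) (hc : c ∈ Q) : (c * c, k * k) ∈ h.Δ := by
  rcases h.kerQ e hc with e1 | e1
  · exact mul_mem e1 e1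
  · have := mul_mem e1 e1
    rwa [Prod.mk_mul_mk, mul_assoc, ← mul_assoc t, ← (h.ct c).eq, mul_assoc, h.t2, mul_one] at this

theorem sqN (e : (c, k) ∈ h.D) (hc : c ∉ Q) (h2 : c * c ∈ Q) : (c * c * (h.G 2 * h.G 2), k * k) ∈ h.Δ := by
  obtain ⟨a, ha⟩ := isConj_iff.1 (h.tri.cj c (by rwa [← QuotientGroup.mk_mul, QuotientGroup.eq_one_iff])
    (mt (QuotientGroup.eq_one_iff _).1 hc))
  induction a using QuotientGroup.induction_on with | H a => ?_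
  obtain ⟨i, -, e1⟩ := h.cover' a
  have e2 := mul_mem (mul_mem e1 (h.GD 2)) (inv_mem e1)
  have e3 : (a, C.F (C.e i)) * (h.G 2, C.F (C.g 2)) * (a, C.F (C.e i))⁻¹ * ((a, C.F (C.e i)) * (h.G 2, C.F (C.g 2)) *
      (a, C.F (C.e i))⁻¹) = (h.G 2 * h.G 2, 1) := by
    rw [conj_mul, Prod.mk_mul_mk (h.G 2), C.spec.2.2.2.2.2.2.2]
    rcases h.w2 with e | e <;> simp [e, (h.ct a).eq]
  have e4 : ((a, C.F (C.e i)) * (h.G 2, C.F (C.g 2)) * (a, C.F (C.e i))⁻¹).1⁻¹ * c ∈ Q := by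
    rw [← QuotientGroup.eq, ← ha, ← h.mk_G]; rfl
  generalize (a, C.F (C.e i)) * (h.G 2, C.F (C.g 2)) * (a, C.F (C.e i))⁻¹ = d at *
  have e5 : ∀ δ ∈ h.Δ, d * δ * (d * δ) * (h.G 2 * h.G 2, 1) ∈ h.Δ := fun δ hδ => by
    have : d * δ * (d * δ) * (h.G 2 * h.G 2, 1) = d * δ * d⁻¹ * δ := by
      have c1 : ∀ x : H × Γ, Commute x (h.G 2 * h.G 2, 1) := fun x => Prod.ext (by
        rcases h.w2 with e | e <;> simp [e, (h.ct _).eq]) (by simp)
      have c2 : (h.G 2 * h.G 2, (1 : Γ)) * (h.G 2 * h.G 2, 1) = 1 := by rcases h.w2 with e | e <;> simp [e, h.t2]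
      calc _ = d * δ * d⁻¹ * (d * d * δ * (h.G 2 * h.G 2, 1)) := by group
        _ = _ := by rw [e3, ← (c1 δ).eq, mul_assoc δ, c2, mul_one]
    exact this ▸ mul_mem (conj_mem_of_norm e2 hδ) hδ
  obtain ⟨d1, d2⟩ := d
  rcases h.kerQ (c := d1⁻¹ * c) (k := d2⁻¹ * k) (mul_mem (inv_mem e2) e) e4 with e6 | e6 <;> have := e5 _ e6
  · simpa using this
  · simp only [Prod.mk_mul_mk, ← mul_assoc, mul_inv_cancel, one_mul, mul_one] at this
    rwa [mul_assoc c t, ← (h.ct c).eq, ← mul_assoc, mul_assoc _ t t, h.t2, mul_one, mul_assoc _ (h.G 2)] at this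

theorem sq_spec {ε : Bool} (hε : ε = true ↔ h.G 2 * h.G 2 = t) (hn : C.V n) (e : (c, C.F n) ∈ h.D) :
    (c * c = 1 → C.sqv ε n = 1) ∧ (C.sqv ε n = 2 → c * c = t) := by
  have e2 := mul_mem e e
  have hV := C.vmul hn hn
  rw [Prod.mk_mul_mk, ← C.fmul hn hn] at e2
  have k : C.mul n n = C.one ∨ C.mul n n = C.z → (c * c * if (ε && !C.inQ n) = true then t else 1, C.F (C.mul n n)) ∈ h.Δ := fun e3 => by
    have h2 : c * c ∈ Q := by
      rcases e3 with e3 | e3 <;> rw [e3] at e2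
      · rcases h.D1 (C.fone ▸ e2) with e4 | e4 <;> rw [e4]; exacts [one_mem _, h.tq]
      · rcases h.Dfst e2 h.zD with e4 | e4 <;> rw [e4]; exacts [one_mem _, mul_mem (one_mem _) h.tq]
    rw [C.fmul hn hn]
    by_cases hc : c ∈ Q
    · simpa [(h.inQ_iff hn e).2 hc] using h.sqQ e hc
    · have := h.sqN e hc h2
      rw [Bool.eq_false_iff.2 (mt (h.inQ_iff hn e).1 hc)]
      cases ε
      · simpa [h.w2.resolve_right (by simpa using hε)] using this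
      · simpa [hε.1 rfl] using this
  have zo : C.z ≠ C.one := fun e => C.spec.2.1 (e ▸ C.fone)
  have t2 : ∀ {a : H}, a * t = 1 → a = t := fun e => by rw [eq_inv_of_mul_eq_one_left e, inv_eq_of_mul_eq_one_right h.t2]
  rw [CG.sqv, force_eq, force_eq, band_eq]
  by_cases e3 : C.mul n n = C.one
  · have := h.Δ1 (by simpa only [e3, C.fone] using k (.inl e3))
    rw [nbeq.2 e3]
    cases hb : (ε && !C.inQ n) <;> simp only [hb, if_true, Bool.false_eq_true, if_false, mul_one] at this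
    · simp
    · simp [t2 this, h.t1]
  rw [nbeq_false.2 e3]
  by_cases e4 : C.mul n n = C.z
  · have := h.Δfst (by simpa only [e4] using k (.inr e4)) h.τΔ
    rw [nbeq.2 e4]
    cases hb : (ε && !C.inQ n) <;> simp only [hb, if_true, Bool.false_eq_true, if_false, mul_one] at this
    · simp [this, h.t1]
    · simp
  · rw [nbeq_false.2 e4]
    refine ⟨fun e5 => ?_, by simp⟩
    rcases h.D2 (e5 ▸ e2) with e6 | e6
    exacts [absurd (C.inj hV C.vone (e6.trans C.fone.symm)) e3, absurd (C.inj hV C.vz e6) e4]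

theorem conj_t {u : ℕ} (hu : u < 64) (e : (x, k) ∈ h.D) (e1 : k * C.F (C.q u) = C.F (C.q u) * C.F C.z * k) : IsConj x (x * t) := by
  have e2 : (pr X u 6, C.F (C.q u)) ∈ h.Δ := h.mem_Δ.2 ⟨u, hu, .inl ⟨rfl, rfl⟩⟩
  have e3 := conj_mem_of_norm e e2
  rw [Prod.inv_mk, Prod.mk_mul_mk, Prod.mk_mul_mk, e1, mul_inv_cancel_right] at e3
  have := h.Δfst e3 (mul_mem e2 h.τΔ)
  refine isConj_iff.2 ⟨(pr X u 6)⁻¹, ?_⟩
  rw [(h.ct x).eq, inv_inv, mul_assoc, ← inv_mul_cancel_right (x * _) x, this]; group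

theorem conj_r {r : Γ} {a : Γ} (e : (x, k) ∈ h.D) (e1 : (c, r) ∈ h.D) (e2 : (c', a) ∈ h.D) (h1 : IsConj c (c * t))
    (h2 : a * r = k * a ∨ a * r * C.F C.z = k * a) : IsConj c x := by
  have e3 : (c' * c * c'⁻¹, a * r * a⁻¹) ∈ h.D := mul_mem (mul_mem e2 e1) (inv_mem e2)
  have e4 : (c' * c * c'⁻¹, k) ∈ h.D := by
    rcases h2 with h2 | h2
    · rwa [h2, mul_inv_cancel_right] at e3
    · have := h.Dz e3
      rwa [mul_assoc (a * r), Subgroup.mem_center_iff.1 C.cen, ← mul_assoc, h2, mul_inv_cancel_right] at this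
  rcases h.Dfst e e4 with rfl | rfl
  · exact isConj_iff.2 ⟨c', rfl⟩
  · exact h1.trans (isConj_iff.2 ⟨c', by rw [mul_assoc _ _ t, (h.ct c'⁻¹).eq]; group⟩)

end Bas

def Bad (t : H) : Prop := ∃ Y : Set H, Y.ncard = 14 ∧ t ∉ Y ∧ (∀ x ∈ Y, ∀ y ∈ Y, IsConj x y) ∧
  ∀ x, x * x = 1 → x ≠ 1 → x ≠ t → IsConj x (x * t) ∧ (x ∈ Y ∨ ∃ y, IsConj y x ∧
    {c | c * c = y ∨ c * c = y * t}.ncard < 2 * {c | c * c = t ∧ Commute c y}.ncard)

def CG.tOK (C : CG Γ) (r u : ℕ) : Bool := band (Nat.blt u 64) (Nat.beq (C.mul r (C.q u)) (C.mul (C.mul (C.q u) C.z) r))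
def CG.cOK (C : CG Γ) (k r n : ℕ) : Bool := band (Nat.blt k 10752) (eqz C.mul C.z (C.mul (C.e k) r) (C.mul n (C.e k)))
def CG.bad1 (C : CG Γ) (ε : Bool) (LI : List ℕ) : Bool := forceL (mapL (Nat.land · 16383) LI) fun L =>
  allLt 10752 fun i => HeR.imp (Nat.beq (C.sqv ε (C.e i)) 1) (bor (Nat.blt i 8) (memL i L))
def CG.bad2 (C : CG Γ) (cv rp LI : List ℕ) : Bool := band (C.tOK (C.e 1) 8) (band (allLt 8 fun v => bor (Nat.beq v 0)
  (C.cOK (nthL 0 cv v) (C.e 1) (C.e v))) (Comp.allL LI fun p => band (Nat.blt (Nat.shiftRight p 28) (lenL rp))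
    (C.cOK (Nat.land (Nat.shiftRight p 14) 16383) (C.e (nthL 0 rp (Nat.shiftRight p 28))) (C.e (Nat.land p 16383)))))
def CG.bad3 (C : CG Γ) (ε : Bool) (r u : ℕ) : Bool := band (Nat.blt r 10752) (force (C.e r) fun r => band (C.tOK r u)
  (Nat.blt (countLt 10752 fun i => force (C.e i) fun n => eqz C.mul C.z (C.mul n n) r)
    (Nat.mul 2 (countLt 10752 fun i => force (C.e i) fun n => band (Nat.beq (C.sqv ε n) 2) (Nat.beq (C.sqv ε (C.mul n r)) 2)))))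

theorem Bas.bad (h : Bas Q t X g C.W) {ε : Bool} (hε : ε = true ↔ h.G 2 * h.G 2 = t) {cv rp qq LI : List ℕ}
    (h1 : C.bad1 ε LI = true) (h2 : C.bad2 cv rp LI = true)
    (h3 : ∀ j < rp.length, C.bad3 ε (nthL 0 rp j) (nthL 0 qq j) = true) : Bad t := by
  have tk : ∀ {r u x}, C.V r → C.tOK r u = true → (x, C.F r) ∈ h.D → IsConj x (x * t) := fun hr e hx => by
    simp only [CG.tOK, band_eq, Bool.and_eq_true, nblt, nbeq] at e
    refine h.conj_t e.1 hx ?_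
    rw [← C.fmul hr (C.vq e.1), e.2, C.fmul (C.vmul (C.vq e.1) C.vz) hr, C.fmul (C.vq e.1) C.vz]
  have ck : ∀ {k r n x c}, C.V r → C.V n → C.cOK k r n = true → (x, C.F n) ∈ h.D → (c, C.F r) ∈ h.D → IsConj c (c * t) →
      IsConj c x := fun hr hn e hx hc h1 => by
    simp only [CG.cOK, band_eq, Bool.and_eq_true, nblt] at e
    have hk := (C.e_spec e.1).1
    refine h.conj_r hx hc (h.G0D e.1) h1 ?_
    simpa only [CG.eqz_iff (C.vmul hk hr) (C.vmul hn hk), C.fmul hk hr, C.fmul hn hk] using e.2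
  have tc : ∀ {x y : H}, IsConj x y → IsConj x (x * t) → IsConj y (y * t) := fun e e1 => by
    obtain ⟨c, rfl⟩ := isConj_iff.1 e
    exact e.symm.trans (e1.trans (isConj_iff.2 ⟨c, by rw [mul_assoc _ _ t, (h.ct c⁻¹).eq]; group⟩))
  simp only [CG.bad1, CG.bad2, forceL_eq, mapL_eq, allLt_iff, HeR.imp_iff, band_eq, bor_eq, Bool.and_eq_true, Bool.or_eq_true,
    nbeq, nblt, memL_iff, List.mem_map, Comp.allL_iff, lenL_eq] at h1 h2
  have v1 := (C.e_spec (i := 1) (by decide)).1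
  have d1 := h.G0D (i := 1) (by decide)
  have t1 := tk v1 h2.1 d1
  have hY : ∀ x ∈ {c | ∃ i < 10752, (decide (0 < i ∧ i < 8)) = true ∧ (c, C.F (C.e i)) ∈ h.D}, IsConj (h.G0 1) x := by
    rintro x ⟨i, hi, e1, e2⟩
    rw [decide_eq_true_eq] at e1
    exact ck v1 (C.e_spec hi).1 ((h2.2.1 i e1.2).resolve_left e1.1.ne') e2 d1 t1
  refine ⟨_, (h.ncard_eq _).trans (by decide +kernel), ?_, fun x hx y hy => (hY x hx).symm.trans (hY y hy), fun x x2 x1 xt => ?_⟩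
  · rintro ⟨i, hi, e1, e2⟩
    rw [decide_eq_true_eq] at e1
    rw [C.e_lt (by omega)] at e2
    exact e1.1.ne' ((C.spec.2.2.2.1 i (by omega)).2.2 (h.Dsnd e2 h.tD))
  obtain ⟨i, hi, e⟩ := h.cover' x
  rcases h1 i hi ((h.sq_spec hε (C.e_spec hi).1 e).1 x2) with h4 | ⟨p, hp, rfl⟩
  · have hx : x ∈ {c | ∃ i < 10752, (decide (0 < i ∧ i < 8)) = true ∧ (c, C.F (C.e i)) ∈ h.D} := ⟨i, hi, by
      rw [decide_eq_true_eq]
      refine ⟨Nat.pos_of_ne_zero ?_, h4⟩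
      rintro rfl
      rw [C.e_lt (by decide), (C.spec.2.2.2.1 0 (by decide)).2.1, pr_zero] at e
      exact (h.D1 e).elim x1 xt, e⟩
    exact ⟨tc (hY x hx) t1, .inl hx⟩
  obtain ⟨h5, h6⟩ := h2.2.2 p hp
  have h7 := h3 _ h5
  generalize nthL 0 rp (Nat.shiftRight p 28) = r at h6 h7
  simp only [CG.bad3, band_eq, Bool.and_eq_true, nblt, force_eq] at h7
  obtain ⟨hr, h8, h9⟩ := h7
  have vr := (C.e_spec hr).1
  have dr := h.G0D hr
  have tr := tk vr h8 dr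
  have cr := ck vr (C.e_spec hi).1 h6 e dr tr
  have r2 : h.G0 r * h.G0 r = 1 := by
    obtain ⟨c, e⟩ := isConj_iff.1 cr.symm
    rw [← e, conj_mul, x2]; simp
  refine ⟨tc cr tr, .inr ⟨_, cr, lt_of_le_of_lt ((Set.ncard_le_ncard ?_).trans (h.ncard_eq _).le)
    ((Nat.mul_lt_mul_of_pos_left h9 two_pos).trans_le (Nat.mul_le_mul_left 2 ((h.ncard_eq _).ge.trans (Set.ncard_le_ncard ?_))))⟩⟩
  · intro c hc
    obtain ⟨j, hj, e1⟩ := h.cover' c
    have vj := (C.e_spec hj).1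
    refine ⟨j, hj, ?_, e1⟩
    rw [CG.eqz_iff (C.vmul vj vj) vr, C.fmul vj vj]
    refine h.Dsnd (mul_mem e1 e1) ?_
    rcases hc with hc | hc <;> rw [hc]
    exacts [dr, h.Dt dr]
  · rintro c ⟨j, hj, e1, e2⟩
    have vj := (C.e_spec hj).1
    simp only [Bool.and_eq_true, nbeq] at e1
    have k1 := (h.sq_spec hε vj e2).2 e1.1
    have k2 := (h.sq_spec hε (C.vmul vj vr) (c := c * h.G0 r) (C.fmul vj vr ▸ mul_mem e2 dr)).2 e1.2
    refine ⟨k1, ?_⟩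
    replace k2 := k2.trans k1.symm
    rw [mul_assoc, mul_left_cancel_iff] at k2
    calc c * h.G0 r = h.G0 r * (h.G0 r * (c * h.G0 r)) := by rw [← mul_assoc, r2, one_mul]
      _ = _ := by rw [k2]

theorem Bas.iso (h : Bas Q t X g C.W) (hw : h.G 2 * h.G 2 = 1) (hΓ : Nat.card Γ = 21504)
    (htop : ∀ K : Subgroup Γ, (∀ i < 10752, C.F (C.e i) ∈ K) → C.F C.z ∈ K → K = ⊤) : ∃ φ : H ≃* Γ, φ t = C.F C.z := by
  have hn : (h.Δ.subgroupOf h.D).Normal := Subgroup.normal_in_normalizer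
  let π := QuotientGroup.mk' (h.Δ.subgroupOf h.D)
  have p1 : ∀ {d : h.D}, π d = 1 ↔ d.1 ∈ h.Δ := QuotientGroup.eq_one_iff _
  let τ : h.D := ⟨_, h.tD⟩
  let d : ℕ → h.D := fun l => ⟨_, h.GD l⟩
  have tc : ∀ x : h.D, x * τ = τ * x := fun x => Subtype.ext (Prod.ext (h.ct _) (by simp [τ]))
  have t2 : π τ * π τ = 1 := by rw [← map_mul, show τ * τ = 1 from Subtype.ext (Prod.ext h.t2 (one_mul _)), map_one]
  have k : ∀ x : h.D, (x.1.1 : H ⧸ Q) = 1 → π x = 1 ∨ π x = π τ := fun x hx =>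
    (h.kerQ x.2 ((QuotientGroup.eq_one_iff _).1 hx)).imp p1.2 fun e => by
      rw [← mul_left_inj (π τ), t2, ← map_mul, p1, show (x * τ).1 = (x.1.1 * t, x.1.2) from Prod.ext rfl (mul_one _)]; exact e
  obtain ⟨K, hK, h1⟩ := split (τ := π τ) (x := π (d 0)) (y := π (d 1)) (w := π (d 2)) (Subgroup.mem_center_iff.2 fun x => by
      obtain ⟨x, rfl⟩ := QuotientGroup.mk'_surjective _ x
      rw [← map_mul, tc, map_mul]) t2
    (by rw [← map_pow]; exact k _ (by simpa [d, h.mk_G] using h.tri.s7))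
    (by rw [← map_pow]; exact k _ (by simpa [d, h.mk_G] using h.tri.r3))
    (by rw [← map_mul, ← map_pow]; exact k _ (by simpa [d, h.mk_G] using h.tri.ws))
    (by
      have := k ((d 0 ^ 2)⁻¹ * (d 1 * d 0 * (d 1)⁻¹)) (by simp [d, h.mk_G, h.tri.rs])
      simpa only [map_mul, map_inv, map_pow, inv_mul_eq_one, inv_mul_eq_iff_eq_mul, mul_one, eq_comm (a := π (d 0) ^ 2)] using this)
    (by rw [← map_mul, show d 2 * d 2 = 1 from Subtype.ext (Prod.ext hw C.spec.2.2.2.2.2.2.2), map_one])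
    (by
      rw [← map_mul, ← map_pow, p1, sq]
      have := h.sqN (c := h.G 2 * h.G 1) (k := C.F (C.g 2) * C.F (C.g 1)) (mul_mem (h.GD 2) (h.GD 1)) (fun e => h.tri.w1 (by rw [← h.mk_G, ← h.mk_G]; exact (QuotientGroup.eq_one_iff _).2 e))
        ((QuotientGroup.eq_one_iff _).1 (by simpa [h.mk_G, sq] using h.tri.wr))
      rwa [hw, mul_one] at this)
  let M := K.comap π
  have hΔ : #(h.Δ) ≤ 128 := h.cardQ ▸ Nat.card_le_card_of_injective (fun x : h.Δ => (⟨x.1.1, h.ΔQ x.2⟩ : Q)) fun x y e => by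
    have e1 : x.1.1 = y.1.1 := congrArg Subtype.val e
    exact Subtype.ext (Prod.ext e1 (h.Δsnd x.2 (e1 ▸ y.2)))
  have hM : #M ≤ 21504 := by
    have e1 := Subgroup.relIndex_ker M π
    have e2 := Subgroup.index_mul_card (π.ker.subgroupOf M)
    rw [Subgroup.map_comap_eq_self_of_surjective (QuotientGroup.mk'_surjective _), Subgroup.relIndex] at e1
    have e3 : #(π.ker.subgroupOf M) ≤ 128 := le_trans (Nat.card_le_card_of_injective (fun x => (⟨x.1.1.1, p1.1 x.2⟩ : h.Δ))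
      fun x y e => Subtype.ext (Subtype.ext (Subtype.ext (congrArg (fun x : h.Δ => x.1) e)))) hΔ
    rw [← e2, e1]
    exact Nat.mul_le_mul hK.2 e3
  have mΔ : ∀ {x} (hx : x ∈ h.Δ), (⟨x, normG _ hx⟩ : h.D) ∈ M := fun hx => by
    rw [Subgroup.mem_comap, p1.2 hx]; exact one_mem _
  let f1 : M →* H := (MonoidHom.fst H Γ).comp (h.D.subtype.comp M.subtype)
  let f2 : M →* Γ := (MonoidHom.snd H Γ).comp (h.D.subtype.comp M.subtype)
  have gm : ∀ l, C.F (C.g l) ∈ f2.range := fun l => by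
    by_cases hl : l < 3
    · have := h1 (π (d l)) (by interval_cases l <;> simp)
      rw [← map_mul] at this
      exact this.elim (fun e => ⟨⟨_, e⟩, rfl⟩) fun e => ⟨⟨_, e⟩, mul_one _⟩
    · rcases k (d l) ((h.mk_G l).trans (h.tri.g3 l (by omega))) with e | e
      · exact ⟨⟨d l, by rw [Subgroup.mem_comap, e]; exact one_mem _⟩, rfl⟩
      · exact ⟨⟨d l * τ, by rw [Subgroup.mem_comap, map_mul, e, t2]; exact one_mem _⟩, mul_one _⟩
  have s2 : Function.Surjective f2 := MonoidHom.range_eq_top.1 (htop _ (fun i hi => by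
    rw [(C.e_spec hi).2, ← (C.spec.2.2.2.1 _ (Nat.mod_lt i (by decide))).2.1]
    refine mul_mem ⟨⟨_, mΔ (h.mem_Δ.2 ⟨_, Nat.mod_lt i (by decide), .inl ⟨rfl, rfl⟩⟩)⟩, rfl⟩ ?_
    generalize wd (i / 64) = w
    induction w with
    | nil => exact one_mem _
    | cons l w ih => exact mul_mem ih (gm l)) ⟨⟨_, mΔ h.τΔ⟩, rfl⟩)
  have cM : #M = 21504 := le_antisymm hM (hΓ ▸ Nat.card_le_card_of_surjective _ s2)
  have b2 := (Nat.bijective_iff_surjective_and_card _).2 ⟨s2, cM.trans hΓ.symm⟩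
  have b1 := (Nat.bijective_iff_injective_and_card f1).2 ⟨(injective_iff_map_eq_one _).2 fun x e => by
    have e1 : x.1.1.1 = 1 := e
    rcases h.D2 (k := x.1.1.2) (e1 ▸ x.1.2) with e2 | e2
    · exact b2.1 (e2.trans (map_one f2).symm)
    · exact absurd (e1.symm.trans (congrArg f1 (b2.1 (a₂ := ⟨_, mΔ h.τΔ⟩) e2))).symm h.t1, cM.trans h.card.symm⟩
  exact ⟨(MulEquiv.ofBijective _ b1).symm.trans (MulEquiv.ofBijective _ b2), by
    rw [MulEquiv.trans_apply, (MulEquiv.symm_apply_eq _).2 (show t = MulEquiv.ofBijective _ b1 ⟨_, mΔ h.τΔ⟩ from rfl)]; rfl⟩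

end Cfsg.Agent.HeU
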